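import Cfsg.Agent.ModJordan.Normalizer
import Mathlib.GroupTheory.GroupAction.ConjAct
import Mathlib.Algebra.Group.Conj
import Mathlib.Algebra.Group.ConjFinite
import Mathlib.GroupTheory.QuotientGroup.Basic
import Mathlib.Algebra.BigOperators.Intervals

/-!
# The class equation argument of Jordan
-/

set_option autoImplicit false
set_option linter.style.haveILetI false
set_option linter.unusedSectionVars false

namespace Cfsg.Agent.ModJordan

/-- Summing a function with divisible fibre sums. -/
theorem dvd_sum_of_fibres {ι κ : Type*} [DecidableEq κ] (s : Finset ι) (key : ι → κ) (f : ι → ℕ)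
    (d : ℕ) (h : ∀ x ∈ s, d ∣ ∑ y ∈ s.filter (fun y => key y = key x), f y) :
    d ∣ ∑ y ∈ s, f y := by
  rw [← Finset.sum_fiberwise_of_maps_to (t := s.image key) fun x hx => Finset.mem_image_of_mem key hx]
  refine Finset.dvd_sum fun c hc => ?_
  obtain ⟨x, hx, rfl⟩ := Finset.mem_image.1 hc
  exact h x hx

/-- A conjugation invariant set of elements with small centralisers. -/
theorem card_dvd_of_small {Q : Type*} [Group Q] [Fintype Q] (s : Finset Q) (L : ℕ)
    (hinv : ∀ x ∈ s, ∀ c : Q, c * x * c⁻¹ ∈ s)
    (hsmall : ∀ x ∈ s, Nat.card (Subgroup.centralizer ({x} : Set Q)) ≤ L) :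
    Nat.card Q ∣ L.factorial * s.card := by
  classical
  rw [mul_comm, ← smul_eq_mul, ← Finset.sum_const]
  refine dvd_sum_of_fibres s ConjClasses.mk _ _ fun x hx => ?_
  have he : s.filter (fun y => ConjClasses.mk y = ConjClasses.mk x) =
      Finset.univ.filter fun y : Q => IsConj x y := by
    ext y
    simp only [Finset.mem_filter, Finset.mem_univ, true_and, ConjClasses.mk_eq_mk_iff_isConj]
    refine ⟨fun h => h.2.symm, fun h => ⟨?_, h.symm⟩⟩
    obtain ⟨c, rfl⟩ := isConj_iff.1 h
    exact hinv x hx c
  rw [he, Finset.sum_const, smul_eq_mul]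
  obtain ⟨m, hm⟩ := Nat.dvd_factorial (Nat.card_pos) (hsmall x hx)
  have hclass : (Finset.univ.filter fun y : Q => IsConj x y).card *
      Nat.card (Subgroup.centralizer ({x} : Set Q)) = Nat.card Q := by
    have hfib : ∀ y ∈ Finset.univ.filter (fun y : Q => IsConj x y),
        (Finset.univ.filter fun c : Q => c * x * c⁻¹ = y).card =
          Nat.card (Subgroup.centralizer ({x} : Set Q)) := by
      intro y hy
      obtain ⟨d, rfl⟩ := isConj_iff.1 (Finset.mem_filter.1 hy).2
      rw [Nat.card_eq_fintype_card, ← Fintype.card_coe]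
      refine Fintype.card_congr ((Equiv.mulLeft d⁻¹).subtypeEquiv fun c => ?_)
      simp only [Finset.mem_filter, Finset.mem_univ, true_and, Equiv.coe_mulLeft,
        Subgroup.mem_centralizer_singleton_iff]
      constructor
      · intro h
        calc d⁻¹ * c * x = d⁻¹ * (c * x * c⁻¹) * c := by group
          _ = x * (d⁻¹ * c) := by rw [h]; group
      · intro h
        calc c * x * c⁻¹ = d * (d⁻¹ * c * x) * c⁻¹ := by group
          _ = d * x * d⁻¹ := by rw [h]; group
    rw [← Finset.sum_const_nat hfib, Nat.card_eq_fintype_card, ← Finset.card_univ]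
    refine (Finset.card_eq_sum_card_fiberwise fun c _ => ?_).symm
    exact Finset.mem_filter.2 ⟨Finset.mem_univ _, isConj_iff.2 ⟨c, rfl⟩⟩
  exact ⟨m, by rw [hm, ← hclass]; ring⟩

variable {G : Type*} [Group G] [Finite G] {F : Type*} [Field F] {E : Type*} [Ring E]
  [Algebra F E] [FiniteDimensional F E] {ρ : G →* E} {N b : ℕ}

variable (F ρ N b) in
/-- `g` is attached to `A`: it normalises `A` and centralises much of it. -/
def Attached (c : ℕ) (A : Subgroup G) (g : G) : Prop :=
  g ∈ Subgroup.normalizer (A : Set G) ∧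
    c * Nat.card (Subgroup.center G) <
      Nat.card (A ⊓ Subgroup.centralizer ({g} : Set G) : Subgroup G)

variable (F ρ N b) in
/-- The large maximal generic subgroups. -/
def Family (c : ℕ) (A : Subgroup G) : Prop :=
  MaxGen F ρ N b A ∧ c * Nat.card (Subgroup.center G) < Nat.card A

theorem exists_noncentral_of_card {X : Subgroup G}
    (h : Nat.card (Subgroup.center G) < Nat.card X) : ∃ x ∈ X, x ∉ Subgroup.center G := by
  by_contra hcon
  push Not at hcon
  exact absurd (Subgroup.card_le_of_le hcon) (not_le.2 h)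

theorem card_mul_relIndex' {X Y : Subgroup G} (h : X ≤ Y) :
    Nat.card X * X.relIndex Y = Nat.card Y := by
  rw [← Subgroup.relIndex_bot_left (H := Y), ← Subgroup.relIndex_mul_relIndex ⊥ X Y bot_le h,
    Subgroup.relIndex_bot_left]

theorem attached_unique (S : Setup F ρ N b) {c : ℕ} (hc : b * bnd b N ≤ c) {g : G}
    (hg : g ∉ Subgroup.center G) {A₁ A₂ : Subgroup G} (h₁ : MaxGen F ρ N b A₁)
    (h₂ : MaxGen F ρ N b A₂) (a₁ : Attached c A₁ g) (a₂ : Attached c A₂ g) : A₁ = A₂ := by
  obtain ⟨D', -, hgen, hidx, -⟩ := exists_top S hg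
  have key : ∀ A : Subgroup G, Attached c A g →
      ∃ h ∈ A, h ∈ cl F ρ D' ∧ h ∉ Subgroup.center G := by
    intro A ha
    obtain ⟨h, hh, hhc⟩ := exists_noncentral_of_card
      (X := D' ⊓ (A ⊓ Subgroup.centralizer ({g} : Set G))) (by
      by_contra hle
      push Not at hle
      have h1 := card_mul_relIndex' (X := D' ⊓ (A ⊓ Subgroup.centralizer ({g} : Set G)))
        (Y := A ⊓ Subgroup.centralizer ({g} : Set G)) inf_le_right
      rw [Subgroup.inf_relIndex_right] at h1
      have h2 : D'.relIndex (A ⊓ Subgroup.centralizer ({g} : Set G)) ≤ c :=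
        ((relIndex_le_right inf_le_right).trans hidx).trans hc
      have := ha.2
      rw [← h1, mul_comm c] at this
      exact absurd this (not_lt.2 (Nat.mul_le_mul hle h2)))
    exact ⟨h, hh.2.1, le_cl ρ D' hh.1, hhc⟩
  obtain ⟨x₁, hx₁A, hx₁B, hx₁⟩ := key A₁ a₁
  obtain ⟨x₂, hx₂A, hx₂B, hx₂⟩ := key A₂ a₂
  exact MaxGen.unique S h₁ h₂ hx₂ (h₁.le_of_mem S hgen hx₁ hx₁A hx₁B hx₂B) hx₂A

theorem attached_exists (S : Setup F ρ N b) {c : ℕ} (hc : 1 ≤ c) {g : G}
    (hg : g ∉ Subgroup.center G)
    (hbig : c * (b * bnd b N) * Nat.card (Subgroup.center G) <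
      Nat.card (Subgroup.centralizer ({g} : Set G))) :
    ∃ A : Subgroup G, Family F ρ N b c A ∧ Attached c A g := by
  obtain ⟨D', hle, hgen, hidx, -⟩ := exists_top S hg
  have hD : c * Nat.card (Subgroup.center G) < Nat.card D' := by
    by_contra hcon
    push Not at hcon
    have h1 := card_mul_relIndex' hle
    rw [← h1] at hbig
    have := Nat.mul_le_mul hcon hidx
    exact absurd hbig (not_lt.2 (this.trans (le_of_eq (by ring))))
  obtain ⟨A, hA, hBA⟩ := exists_maxGen hgen
  have hDA : D' ≤ A := (le_cl ρ D').trans hBA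
  obtain ⟨h, hhD, hhc⟩ := exists_noncentral_of_card (X := D')
    (lt_of_le_of_lt (Nat.le_mul_of_pos_left _ hc) hD)
  have hgh : g * h * g⁻¹ = h := by
    rw [mul_inv_eq_iff_eq_mul]
    exact (Subgroup.mem_centralizer_singleton_iff.1 (hle hhD)).symm
  have heq : A.map (MulAut.conj g).toMonoidHom = A :=
    MaxGen.unique S (hA.map_conj g) hA hhc ⟨h, hDA hhD, hgh⟩ (hDA hhD)
  refine ⟨A, ⟨hA, lt_of_lt_of_le hD (Subgroup.card_le_of_le hDA)⟩, ?_,
    lt_of_lt_of_le hD (Subgroup.card_le_of_le (le_inf hDA hle))⟩
  rw [Subgroup.mem_normalizer_iff]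
  intro x
  conv_rhs => rw [← heq]
  constructor
  · exact fun hx => ⟨x, hx, rfl⟩
  · rintro ⟨y, hy, he⟩
    rwa [← (MulAut.conj g).injective (a₁ := y) (a₂ := x) he]

/-- The thresholds. -/
def thr (N b q n c : ℕ) : ℕ :=
  (n * (c * (b * bnd b N))).factorial * (N ^ N * (b * bnd b N)).factorial

open scoped Classical in
theorem sum_family_le (S : Setup F ρ N b) [Fintype G] {c : ℕ} (hc : 1 ≤ c) :
    ∑ A ∈ (Finset.univ : Finset (Subgroup G)).filter (Family F ρ N b c),
      (Nat.card A - Nat.card (Subgroup.center G)) ≤ Nat.card G := by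
  set Fam := (Finset.univ : Finset (Subgroup G)).filter (Family F ρ N b c) with hFam
  let T : Subgroup G → Finset G := fun A =>
    Finset.univ.filter fun x => x ∈ A ∧ x ∉ Subgroup.center G
  have hdisj : (Fam : Set (Subgroup G)).PairwiseDisjoint T := by
    intro A hA B hB hne
    rw [Function.onFun, Finset.disjoint_left]
    intro x hxA hxB
    obtain ⟨-, hxA1, hxc⟩ := Finset.mem_filter.1 hxA
    obtain ⟨-, hxB1, -⟩ := Finset.mem_filter.1 hxB
    exact hne (MaxGen.unique S (Finset.mem_filter.1 hA).2.1 (Finset.mem_filter.1 hB).2.1 hxc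
      hxA1 hxB1)
  have hcard : ∀ A ∈ Fam, (T A).card = Nat.card A - Nat.card (Subgroup.center G) := by
    intro A hA
    have hZA := (Finset.mem_filter.1 hA).2.1.1.2.1
    have e : T A = (Finset.univ.filter (· ∈ A)) \ (Finset.univ.filter (· ∈ Subgroup.center G)) := by
      ext x; simp [T]
    rw [e, Finset.card_sdiff_of_subset (fun x hx => by
      simp only [Finset.mem_filter, Finset.mem_univ, true_and] at hx ⊢; exact hZA hx),
      Nat.card_eq_fintype_card, Nat.card_eq_fintype_card, Fintype.card_subtype,
      Fintype.card_subtype]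
  rw [← Finset.sum_congr rfl hcard, ← Finset.card_biUnion hdisj, Nat.card_eq_fintype_card]
  exact Finset.card_le_univ _

open scoped Classical in
/-- The class equation at a gap in the sizes of the large subgroups. -/
theorem exists_of_gap [IsAlgClosed F] {p q n : ℕ} [Fact p.Prime] [CharP E p]
    (S : Setup F ρ N b) (hq : ∀ P : Subgroup G, IsPGroup p P → Nat.card P ≤ q)
    (hn : ∀ g : G, Nat.card {z : Subgroup.center G // IsConj g (g * z)} ≤ n)
    {c : ℕ} (hc1 : b * bnd b N ≤ c) (hc2 : q.factorial ^ N * q ≤ c)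
    (hgap : ∀ A : Subgroup G, Family F ρ N b c A → Family F ρ N b (thr N b q n c + 1) A) :
    ∃ A : Subgroup G, Comm A ∧
      Nat.card G ≤ max (N ^ N * (b * bnd b N)) (thr N b q n c) * Nat.card A := by
  letI := Fintype.ofFinite G
  set e' := b * bnd b N with he'
  set K := N ^ N * e' with hK
  set P := thr N b q n c with hP
  set Z := Subgroup.center G with hZ
  set Fam := (Finset.univ : Finset (Subgroup G)).filter (Family F ρ N b c) with hFam
  have hc0 : 1 ≤ c := le_trans (Nat.mul_pos S.one_le (one_le_bnd S.one_le N)) hc1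
  let att : Subgroup G → Finset G := fun A =>
    Finset.univ.filter fun g => g ∉ Z ∧ Attached c A g
  let sm : Finset G := Finset.univ.filter fun g => g ∉ Z ∧ ∀ A ∈ Fam, ¬ Attached c A g
  let zc : Finset G := Finset.univ.filter fun g => g ∈ Z
  have hfam : ∀ A ∈ Fam, Family F ρ N b c A := fun A hA => (Finset.mem_filter.1 hA).2
  have hbigA : ∀ A ∈ Fam, (q.factorial ^ N * q) * Nat.card Z < Nat.card A := fun A hA =>
    lt_of_le_of_lt (Nat.mul_le_mul_right _ hc2) (hfam A hA).2
  have hnorm : ∀ A ∈ Fam, Nat.card (Subgroup.normalizer (A : Set G)) ≤ K * Nat.card A :=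
    fun A hA => (hfam A hA).1.card_normalizer_le S hq (hbigA A hA)
  -- the partition of the group
  have hpart : Nat.card G = zc.card + sm.card + ∑ A ∈ Fam, (att A).card := by
    have hdisj : (Fam : Set (Subgroup G)).PairwiseDisjoint att := by
      intro A hA B hB hne
      rw [Function.onFun, Finset.disjoint_left]
      intro g hgA hgB
      obtain ⟨-, hgz, haA⟩ := Finset.mem_filter.1 hgA
      exact hne (attached_unique S hc1 hgz (hfam A hA).1 (hfam B hB).1 haA
        (Finset.mem_filter.1 hgB).2.2)
    rw [← Finset.card_biUnion hdisj, ← Finset.card_union_of_disjoint, ← Finset.card_union_of_disjoint,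
      Nat.card_eq_fintype_card, ← Finset.card_univ]
    · congr 1
      ext g
      simp only [Finset.mem_univ, Finset.mem_union, Finset.mem_biUnion, true_iff, zc, sm, att,
        Finset.mem_filter, true_and]
      by_cases hgz : g ∈ Z
      · exact Or.inl (Or.inl hgz)
      · by_cases h : ∀ A ∈ Fam, ¬ Attached c A g
        · exact Or.inl (Or.inr ⟨hgz, h⟩)
        · push Not at h
          obtain ⟨A, hA, ha⟩ := h
          exact Or.inr ⟨A, hA, hgz, ha⟩
    · rw [Finset.disjoint_left]
      intro g hg hgU
      obtain ⟨A, hA, hgA⟩ := Finset.mem_biUnion.1 hgU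
      obtain ⟨-, hgz, ha⟩ := Finset.mem_filter.1 hgA
      rcases Finset.mem_union.1 hg with h | h
      · exact hgz (Finset.mem_filter.1 h).2
      · exact (Finset.mem_filter.1 h).2.2 A hA ha
    · rw [Finset.disjoint_left]
      intro g hg hg'
      exact (Finset.mem_filter.1 hg').2.1 (Finset.mem_filter.1 hg).2
  have hzc : zc.card = Nat.card Z := by
    rw [Nat.card_eq_fintype_card, Fintype.card_subtype]
  have hcentral : ∀ z ∈ Z, ∀ g : G, Subgroup.centralizer ({g * z} : Set G) =
      Subgroup.centralizer ({g} : Set G) := by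
    intro z hz g
    ext x
    simp only [Subgroup.mem_centralizer_singleton_iff]
    rw [← mul_assoc, mul_assoc g z x, ← Subgroup.mem_center_iff.1 hz x, ← mul_assoc]
    exact mul_left_inj z
  have hmulZ : ∀ z ∈ Z, ∀ (g : G) (A : Subgroup G), g ∉ Z → MaxGen F ρ N b A →
      (Attached c A (g * z) ↔ Attached c A g) := by
    intro z hz g A _ hA
    unfold Attached
    rw [hcentral z hz g]
    refine and_congr_left fun _ => ?_
    exact (Subgroup.normalizer (A : Set G)).mul_mem_cancel_right
      (Subgroup.le_normalizer (hA.1.2.1 hz))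
  -- small elements
  have hsm : Nat.card G ∣ (n * (c * e')).factorial * sm.card := by
    let π := QuotientGroup.mk' Z
    letI : Fintype (G ⧸ Z) := Fintype.ofFinite _
    let s : Finset (G ⧸ Z) := sm.image π
    have hsat : ∀ g ∈ sm, ∀ z ∈ Z, g * z ∈ sm := by
      intro g hg z hz
      obtain ⟨-, hgz, hA⟩ := Finset.mem_filter.1 hg
      refine Finset.mem_filter.2 ⟨Finset.mem_univ _, fun h => hgz ((Z.mul_mem_cancel_right hz).1 h),
        fun A hAF ha => hA A hAF ((hmulZ z hz g A hgz (hfam A hAF).1).1 ha)⟩
    have hconj : ∀ g ∈ sm, ∀ x : G, x * g * x⁻¹ ∈ sm := by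
      intro g hg x
      obtain ⟨-, hgz, hA⟩ := Finset.mem_filter.1 hg
      refine Finset.mem_filter.2 ⟨Finset.mem_univ _, fun h => hgz ?_, fun A hAF ha => ?_⟩
      · have h' := Subgroup.Normal.conj_mem (inferInstance : Z.Normal) _ h x⁻¹
        simpa [mul_assoc] using h'
      · have hA' : A.map (MulAut.conj x⁻¹).toMonoidHom ∈ Fam := by
          refine Finset.mem_filter.2 ⟨Finset.mem_univ _, (hfam A hAF).1.map_conj _, ?_⟩
          rw [Subgroup.card_map_of_injective (MulAut.conj x⁻¹).injective]
          exact (hfam A hAF).2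
        refine hA _ hA' ⟨?_, ?_⟩
        · rw [Subgroup.mem_normalizer_iff]
          intro y
          have h1 := Subgroup.mem_normalizer_iff.1 ha.1 (x * y * x⁻¹)
          have hmem : ∀ y : G, y ∈ A.map (MulAut.conj x⁻¹).toMonoidHom ↔ x * y * x⁻¹ ∈ A :=
            fun y => ⟨by rintro ⟨a, ha', rfl⟩; simpa [mul_assoc] using ha',
              fun h => ⟨_, h, by simp [mul_assoc]⟩⟩
          rw [hmem, hmem, h1]
          refine iff_of_eq (congrArg (· ∈ A) ?_)
          group
        · refine lt_of_lt_of_le ha.2 ?_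
          rw [← Subgroup.card_map_of_injective (K := A ⊓ Subgroup.centralizer ({x * g * x⁻¹} : Set G))
            (f := (MulAut.conj x⁻¹).toMonoidHom) (MulAut.conj x⁻¹).injective]
          refine Subgroup.card_le_of_le ?_
          rintro _ ⟨a, ha', rfl⟩
          refine ⟨⟨a, ha'.1, rfl⟩, ?_⟩
          have := Subgroup.mem_centralizer_singleton_iff.1 ha'.2
          apply Subgroup.mem_centralizer_singleton_iff.2
          show x⁻¹ * a * (x⁻¹)⁻¹ * g = g * (x⁻¹ * a * (x⁻¹)⁻¹)
          calc x⁻¹ * a * (x⁻¹)⁻¹ * g = x⁻¹ * (a * (x * g * x⁻¹)) * x := by group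
            _ = _ := by rw [this]; group
    have hs : sm.card = s.card * Nat.card Z := by
      rw [mul_comm]
      refine (Finset.card_eq_sum_card_fiberwise (f := π) (t := s)
        fun g hg => Finset.mem_image_of_mem π hg).trans ?_
      rw [Finset.sum_const_nat (m := Nat.card Z), mul_comm]
      intro v hv
      obtain ⟨g, hg, rfl⟩ := Finset.mem_image.1 hv
      rw [Nat.card_eq_fintype_card, ← Fintype.card_coe]
      refine Fintype.card_congr ((Equiv.mulLeft g⁻¹).subtypeEquiv fun y => ?_)
      simp only [Finset.mem_filter, Equiv.coe_mulLeft]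
      constructor
      · rintro ⟨-, he⟩
        exact QuotientGroup.eq.1 he.symm
      · intro hy
        have h1 := hsat g hg _ hy
        rw [mul_inv_cancel_left] at h1
        exact ⟨h1, (QuotientGroup.eq.2 hy).symm⟩
    have hQ : Nat.card G = Nat.card (G ⧸ Z) * Nat.card Z :=
      Subgroup.card_eq_card_quotient_mul_card_subgroup Z
    rw [hs, hQ, ← mul_assoc]
    refine mul_dvd_mul_right (card_dvd_of_small s _ ?_ ?_) _
    · intro v hv d
      obtain ⟨g, hg, rfl⟩ := Finset.mem_image.1 hv
      obtain ⟨x, rfl⟩ := QuotientGroup.mk'_surjective Z d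
      exact Finset.mem_image.2 ⟨x * g * x⁻¹, hconj g hg x, by simp [π]⟩
    · intro v hv
      obtain ⟨g, hg, rfl⟩ := Finset.mem_image.1 hv
      obtain ⟨-, hgz, hnot⟩ := Finset.mem_filter.1 hg
      have hCle : Nat.card (Subgroup.centralizer ({g} : Set G)) ≤ c * e' * Nat.card Z := by
        by_contra hcon
        push Not at hcon
        obtain ⟨A, hA, ha⟩ := attached_exists S hc0 hgz hcon
        exact hnot A (Finset.mem_filter.2 ⟨Finset.mem_univ _, hA⟩) ha
      let W : Subgroup G := (Subgroup.centralizer ({π g} : Set (G ⧸ Z))).comap π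
      have hW : Nat.card W ≤ n * (c * e') * Nat.card Z := by
        have hfib : ∀ v ∈ (Finset.univ.filter (· ∈ W)).image (fun x => g⁻¹ * (x * g * x⁻¹)),
            ((Finset.univ.filter (· ∈ W)).filter fun x => g⁻¹ * (x * g * x⁻¹) = v).card ≤
              Nat.card (Subgroup.centralizer ({g} : Set G)) := by
          intro v hv
          obtain ⟨x₀, -, rfl⟩ := Finset.mem_image.1 hv
          rw [Nat.card_eq_fintype_card, Fintype.card_subtype]
          refine Finset.card_le_card_of_injOn (fun x => x₀⁻¹ * x) (fun x hx => ?_)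
            (fun a _ b _ h => mul_left_cancel h)
          refine Finset.mem_filter.2 ⟨Finset.mem_univ _, ?_⟩
          have h := mul_left_cancel (Finset.mem_filter.1 hx).2
          rw [Subgroup.mem_centralizer_singleton_iff]
          calc x₀⁻¹ * x * g = x₀⁻¹ * (x * g * x⁻¹) * x := by group
            _ = g * (x₀⁻¹ * x) := by rw [h]; group
        have h1 := Finset.card_le_mul_card_image _ _ hfib
        rw [← Fintype.card_subtype, ← Nat.card_eq_fintype_card] at h1
        refine h1.trans ?_
        rw [show n * (c * e') * Nat.card Z = c * e' * Nat.card Z * n by ring]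
        refine Nat.mul_le_mul hCle (le_trans ?_ (hn g))
        rw [Nat.card_eq_fintype_card, Fintype.card_subtype, ← Finset.card_image_of_injective _
          (Subtype.val_injective (p := (· ∈ Subgroup.center G)))]
        refine Finset.card_le_card fun v hv => ?_
        obtain ⟨x, hx, rfl⟩ := Finset.mem_image.1 hv
        have hxW : π x ∈ Subgroup.centralizer ({π g} : Set (G ⧸ Z)) := (Finset.mem_filter.1 hx).2
        have hz : g⁻¹ * (x * g * x⁻¹) ∈ Z := by
          apply QuotientGroup.eq.1
          show π g = π (x * g * x⁻¹)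
          rw [map_mul, map_mul, map_inv, Subgroup.mem_centralizer_singleton_iff.1 hxW,
            mul_inv_cancel_right]
        refine Finset.mem_image.2 ⟨⟨_, hz⟩, Finset.mem_filter.2 ⟨Finset.mem_univ _, ?_⟩, rfl⟩
        show IsConj g (g * (g⁻¹ * (x * g * x⁻¹)))
        rw [mul_inv_cancel_left]
        exact isConj_iff.2 ⟨x, rfl⟩
      have hWc : Nat.card W = Nat.card (Subgroup.centralizer ({π g} : Set (G ⧸ Z))) * Nat.card Z := by
        have h1 : W.index = (Subgroup.centralizer ({π g} : Set (G ⧸ Z))).index :=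
          Subgroup.index_comap_of_surjective _ (QuotientGroup.mk'_surjective Z)
        refine Nat.eq_of_mul_eq_mul_right (Nat.pos_of_ne_zero
          (Subgroup.index_ne_zero_of_finite (H := W))) ?_
        rw [Subgroup.card_mul_index, h1, mul_right_comm, Subgroup.card_mul_index, ← hQ]
      rw [hWc] at hW
      exact Nat.le_of_mul_le_mul_right hW Nat.card_pos
  -- the families
  have hfams : Nat.card G ∣ K.factorial * ∑ A ∈ Fam, ((att A).card + Nat.card Z) := by
    rw [Finset.mul_sum]
    refine dvd_sum_of_fibres Fam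
      (fun A => Set.range fun g : G => A.map (MulAut.conj g).toMonoidHom) _ _ fun A hA => ?_
    have hGA := (hfam A hA).1
    have hmemconj : ∀ (g : G) (B : Subgroup G) (y : G),
        y ∈ B.map (MulAut.conj g).toMonoidHom ↔ g⁻¹ * y * g ∈ B :=
      fun g B y => ⟨by rintro ⟨a, ha', rfl⟩; simpa [mul_assoc] using ha',
        fun h => ⟨_, h, by simp [mul_assoc]⟩⟩
    have hcomp : ∀ (g h : G) (B : Subgroup G),
        (B.map (MulAut.conj g).toMonoidHom).map (MulAut.conj h).toMonoidHom =
          B.map (MulAut.conj (h * g)).toMonoidHom := fun g h B => by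
      ext y; simp [hmemconj, mul_assoc]
    set orb := Fam.filter fun B => (Set.range fun g : G => B.map (MulAut.conj g).toMonoidHom) =
      Set.range fun g : G => A.map (MulAut.conj g).toMonoidHom with horb
    have horb_eq : orb = (Finset.univ : Finset G).image
        (fun g => A.map (MulAut.conj g).toMonoidHom) := by
      ext B
      constructor
      · intro hB
        obtain ⟨-, hr⟩ := Finset.mem_filter.1 hB
        have : B ∈ Set.range fun g : G => A.map (MulAut.conj g).toMonoidHom := hr ▸ ⟨1, by
          ext y; simp [hmemconj]⟩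
        obtain ⟨g, hg⟩ := this
        exact Finset.mem_image.2 ⟨g, Finset.mem_univ _, hg⟩
      · intro hB
        obtain ⟨g, -, rfl⟩ := Finset.mem_image.1 hB
        refine Finset.mem_filter.2 ⟨Finset.mem_filter.2 ⟨Finset.mem_univ _, hGA.map_conj g, ?_⟩, ?_⟩
        · rw [Subgroup.card_map_of_injective (MulAut.conj g).injective]
          exact (hfam A hA).2
        · refine Set.Subset.antisymm ?_ ?_
          · rintro _ ⟨h, rfl⟩
            exact ⟨h * g, (hcomp g h A).symm⟩
          · rintro _ ⟨h, rfl⟩
            exact ⟨h * g⁻¹, by show (A.map _).map _ = _; rw [hcomp, inv_mul_cancel_right]⟩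
    have horbcard : orb.card * Nat.card (Subgroup.normalizer (A : Set G)) = Nat.card G := by
      have hfib : ∀ B ∈ orb, (Finset.univ.filter fun g : G =>
          A.map (MulAut.conj g).toMonoidHom = B).card =
            Nat.card (Subgroup.normalizer (A : Set G)) := by
        intro B hB
        rw [horb_eq] at hB
        obtain ⟨g₀, -, rfl⟩ := Finset.mem_image.1 hB
        rw [Nat.card_eq_fintype_card, ← Fintype.card_coe]
        refine Fintype.card_congr ((Equiv.mulLeft g₀⁻¹).subtypeEquiv fun g => ?_)
        simp only [Finset.mem_filter, Finset.mem_univ, true_and, Equiv.coe_mulLeft,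
          Subgroup.mem_normalizer_iff, SetLike.ext_iff, hmemconj]
        constructor
        · intro h y
          have h1 := h (g * y * g⁻¹)
          simp only [mul_assoc, inv_mul_cancel_left, inv_mul_cancel, mul_one] at h1
          simp only [mul_inv_rev, inv_inv, mul_assoc]
          exact h1
        · intro h y
          have h1 := h (g⁻¹ * y * g)
          simp only [mul_inv_rev, inv_inv, mul_assoc, mul_inv_cancel_left, inv_mul_cancel,
            mul_inv_cancel, mul_one] at h1
          simp only [mul_assoc]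
          exact h1
      rw [← Finset.sum_const_nat hfib, Nat.card_eq_fintype_card, ← Finset.card_univ]
      refine (Finset.card_eq_sum_card_fiberwise fun g _ => ?_).symm
      rw [horb_eq]
      exact Finset.mem_image_of_mem _ (Finset.mem_univ g)
    have hdvdA : ∀ B ∈ Fam, Nat.card B ∣ (att B).card + Nat.card Z := by
      intro B hB
      rw [← hzc, ← Finset.card_union_of_disjoint (by
        rw [Finset.disjoint_left]
        intro g hg hg'
        exact (Finset.mem_filter.1 hg).2.1 (Finset.mem_filter.1 hg').2)]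
      set s := att B ∪ zc with hsdef
      have hclosed : ∀ g ∈ s, ∀ a ∈ B, g * a ∈ s := by
        intro g hg a ha
        have hab := (hfam B hB).1.1.1
        have hN : g ∈ Subgroup.normalizer (B : Set G) := by
          rcases Finset.mem_union.1 hg with h | h
          · exact (Finset.mem_filter.1 h).2.2.1
          · rw [Subgroup.mem_normalizer_iff]
            intro y
            rw [← Subgroup.mem_center_iff.1 (Finset.mem_filter.1 h).2 y, mul_inv_cancel_right]
        have hC : B ⊓ Subgroup.centralizer ({g} : Set G) ≤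
            B ⊓ Subgroup.centralizer ({g * a} : Set G) := by
          rintro y ⟨hy1, hy2⟩
          refine ⟨hy1, Subgroup.mem_centralizer_singleton_iff.2 ?_⟩
          rw [← mul_assoc, Subgroup.mem_centralizer_singleton_iff.1 hy2, mul_assoc,
            (hab y hy1 a ha).eq, ← mul_assoc]
        by_cases hgaz : g * a ∈ Z
        · exact Finset.mem_union_right _ (Finset.mem_filter.2 ⟨Finset.mem_univ _, hgaz⟩)
        refine Finset.mem_union_left _ (Finset.mem_filter.2 ⟨Finset.mem_univ _, hgaz,
          mul_mem hN (Subgroup.le_normalizer ha), ?_⟩)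
        rcases Finset.mem_union.1 hg with h | h
        · exact lt_of_lt_of_le (Finset.mem_filter.1 h).2.2.2 (Subgroup.card_le_of_le hC)
        · refine lt_of_lt_of_le (hfam B hB).2 (Subgroup.card_le_of_le (le_trans ?_ hC))
          refine le_inf le_rfl fun y _ => Subgroup.mem_centralizer_singleton_iff.2 ?_
          exact Subgroup.mem_center_iff.1 (Finset.mem_filter.1 h).2 y
      rw [Finset.card_eq_sum_card_image (fun g : G => (QuotientGroup.mk g : G ⧸ B)) s]
      refine Finset.dvd_sum fun v hv => ?_
      obtain ⟨g, hg, rfl⟩ := Finset.mem_image.1 hv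
      refine dvd_of_eq ?_
      rw [Nat.card_eq_fintype_card, ← Fintype.card_coe]
      refine Fintype.card_congr (((Equiv.mulLeft g⁻¹).subtypeEquiv fun y => ?_).symm)
      simp only [Finset.mem_filter, Equiv.coe_mulLeft]
      constructor
      · rintro ⟨-, he⟩
        exact QuotientGroup.eq.1 he.symm
      · intro hy
        have h1 := hclosed g hg _ hy
        rw [mul_inv_cancel_left] at h1
        exact ⟨h1, (QuotientGroup.eq.2 hy).symm⟩
    have hcong : ∀ B ∈ orb, (att B).card = (att A).card := by
      intro B hB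
      rw [horb_eq] at hB
      obtain ⟨g, -, rfl⟩ := Finset.mem_image.1 hB
      refine (Finset.card_equiv (MulAut.conj g).toEquiv fun x => ?_).symm
      simp only [att, Finset.mem_filter, Finset.mem_univ, true_and, MulEquiv.coe_toEquiv,
        MulAut.conj_apply]
      have hzx : g * x * g⁻¹ ∈ Z ↔ x ∈ Z := ⟨fun h => by
        simpa [mul_assoc] using Subgroup.Normal.conj_mem (inferInstance : Z.Normal) _ h g⁻¹,
        fun h => Subgroup.Normal.conj_mem (inferInstance : Z.Normal) _ h g⟩
      show x ∉ Z ∧ Attached c A x ↔ g * x * g⁻¹ ∉ Z ∧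
        Attached c (A.map (MulAut.conj g).toMonoidHom) (g * x * g⁻¹)
      rw [hzx]
      refine and_congr_right fun _ => ?_
      unfold Attached
      have h1 : g * x * g⁻¹ ∈ Subgroup.normalizer
          (A.map (MulAut.conj g).toMonoidHom : Set G) ↔ x ∈ Subgroup.normalizer (A : Set G) := by
        simp only [Subgroup.mem_normalizer_iff, hmemconj]
        constructor
        · intro h y
          have h' := h (g * y * g⁻¹)
          simp only [mul_inv_rev, inv_inv, mul_assoc, inv_mul_cancel_left, inv_mul_cancel,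
            mul_one] at h'
          simp only [mul_assoc]; exact h'
        · intro h y
          have h' := h (g⁻¹ * y * g)
          simp only [mul_inv_rev, inv_inv, mul_assoc, inv_mul_cancel_left, inv_mul_cancel,
            mul_one] at h' ⊢
          exact h'
      have h2 : Nat.card (A.map (MulAut.conj g).toMonoidHom ⊓
          Subgroup.centralizer ({g * x * g⁻¹} : Set G) : Subgroup G) =
          Nat.card (A ⊓ Subgroup.centralizer ({x} : Set G) : Subgroup G) := by
        rw [← Subgroup.card_map_of_injective (K := A ⊓ Subgroup.centralizer ({x} : Set G))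
          (f := (MulAut.conj g).toMonoidHom) (MulAut.conj g).injective]
        congr 2
        ext y
        simp only [Subgroup.mem_inf, hmemconj, Subgroup.mem_centralizer_singleton_iff]
        refine and_congr_right fun _ => ⟨fun h => ?_, fun h => ?_⟩
        · calc g⁻¹ * y * g * x = g⁻¹ * (y * (g * x * g⁻¹)) * g := by group
            _ = _ := by rw [h]; group
        · calc y * (g * x * g⁻¹) = g * (g⁻¹ * y * g * x) * g⁻¹ := by group
            _ = _ := by rw [h]; group
      rw [h1, h2]
    rw [Finset.sum_congr rfl fun B hB => by rw [hcong B hB], Finset.sum_const, smul_eq_mul]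
    obtain ⟨r, hr⟩ := hdvdA A hA
    obtain ⟨k, hk⟩ := Subgroup.card_dvd_of_le (Subgroup.le_normalizer (H := A))
    have hk0 : 0 < k := Nat.pos_of_ne_zero fun h => by
      rw [h, mul_zero] at hk; exact Nat.card_pos.ne' hk
    obtain ⟨m, hm⟩ := Nat.dvd_factorial hk0 (Nat.le_of_mul_le_mul_left
      ((hk ▸ hnorm A hA).trans_eq (mul_comm _ _)) Nat.card_pos)
    exact ⟨m * r, by rw [hr, hm, ← horbcard, hk]; ring⟩
  -- conclusion
  set T := Fam.card with hT
  have hsplit : ∑ A ∈ Fam, ((att A).card + Nat.card Z) =
      (∑ A ∈ Fam, (att A).card) + T * Nat.card Z := by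
    rw [Finset.sum_add_distrib, Finset.sum_const, smul_eq_mul]
  have hdvd : (Nat.card G : ℤ) ∣ (P : ℤ) * Nat.card Z * (1 - (T : ℤ)) := by
    have h1 : (Nat.card G : ℤ) ∣ (P : ℤ) * sm.card := by
      exact_mod_cast (show Nat.card G ∣ P * sm.card from by
        rw [hP, thr, mul_right_comm]; exact hsm.mul_right _)
    have h2 : (Nat.card G : ℤ) ∣ (P : ℤ) * ((∑ A ∈ Fam, (att A).card) + T * Nat.card Z : ℕ) := by
      exact_mod_cast (show Nat.card G ∣ P * _ from by
        rw [hP, thr, mul_assoc, ← hsplit]; exact Dvd.dvd.mul_left hfams _)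
    have h3 := congrArg (fun m : ℕ => (m : ℤ)) hpart
    rw [hzc] at h3
    push_cast at h2 h3
    have e : (P : ℤ) * Nat.card Z * (1 - (T : ℤ)) =
        (P : ℤ) * Nat.card G - (P : ℤ) * sm.card -
          (P : ℤ) * ((∑ A ∈ Fam, ((att A).card : ℤ)) + T * Nat.card Z) := by
      rw [h3]; ring
    rw [e]
    exact dvd_sub (dvd_sub (dvd_mul_left _ _) h1) h2
  have hP0 : 0 < P := Nat.mul_pos (Nat.factorial_pos _) (Nat.factorial_pos _)
  rcases Nat.lt_trichotomy T 1 with hT0 | hT1 | hT2
  · refine ⟨Z, fun x _ y hy => Subgroup.mem_center_iff.1 hy x, ?_⟩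
    rw [show T = 0 by omega] at hdvd
    simp only [Nat.cast_zero, sub_zero, mul_one] at hdvd
    refine (Nat.le_of_dvd (Nat.mul_pos hP0 Nat.card_pos) (by exact_mod_cast hdvd)).trans
      (Nat.mul_le_mul_right _ (le_max_right _ _))
  · obtain ⟨A, hA⟩ := Finset.card_eq_one.1 hT1
    have hAF : A ∈ Fam := hA ▸ Finset.mem_singleton_self A
    have htop : Subgroup.normalizer (A : Set G) = ⊤ := by
      refine eq_top_iff.2 fun g _ => ?_
      have hmem : A.map (MulAut.conj g).toMonoidHom ∈ Fam := by
        refine Finset.mem_filter.2 ⟨Finset.mem_univ _, (hfam A hAF).1.map_conj g, ?_⟩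
        rw [Subgroup.card_map_of_injective (MulAut.conj g).injective]
        exact (hfam A hAF).2
      have heq : A.map (MulAut.conj g).toMonoidHom = A := Finset.mem_singleton.1 (hA ▸ hmem)
      rw [Subgroup.mem_normalizer_iff]
      intro x
      conv_rhs => rw [← heq]
      exact ⟨fun hx => ⟨x, hx, rfl⟩, fun ⟨y, hy, he⟩ =>
        (MulAut.conj g).injective (a₁ := y) (a₂ := x) he ▸ hy⟩
    refine ⟨A, (hfam A hAF).1.1.1, ?_⟩
    have := hnorm A hAF
    rw [htop, Subgroup.card_top] at this
    exact this.trans (Nat.mul_le_mul_right _ (le_max_left _ _))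
  · exfalso
    have hz := sum_family_le S (c := c) hc0
    have hbig : ∀ A ∈ Fam, P * Nat.card Z ≤ Nat.card A - Nat.card Z := fun A hA => by
      have := (hgap A (hfam A hA)).2
      rw [add_mul, one_mul] at this
      have e0 : Nat.card (Subgroup.center G) = Nat.card Z := rfl
      rw [e0] at this
      omega
    have h1 : T * (P * Nat.card Z) ≤ Nat.card G :=
      le_trans (by simpa [hT] using Finset.card_nsmul_le_sum Fam _ _ hbig) hz
    have h2 : (Nat.card G : ℤ) ≤ (P : ℤ) * Nat.card Z * ((T : ℤ) - 1) := by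
      refine Int.le_of_dvd ?_ ?_
      · have : (1 : ℤ) < T := by exact_mod_cast hT2
        have hZ0 : (0 : ℤ) < Nat.card Z := by exact_mod_cast Nat.card_pos
        have hP' : (0 : ℤ) < P := by exact_mod_cast hP0
        exact mul_pos (mul_pos hP' hZ0) (by omega)
      · rw [show (P : ℤ) * Nat.card Z * ((T : ℤ) - 1) = -((P : ℤ) * Nat.card Z * (1 - (T : ℤ))) by
          ring]
        exact hdvd.neg_right
    have h3 : (T : ℤ) * ((P : ℤ) * Nat.card Z) ≤ Nat.card G := by exact_mod_cast h1
    have hpos : (0 : ℤ) < (P : ℤ) * Nat.card Z := by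
      exact_mod_cast Nat.mul_pos hP0 Nat.card_pos
    nlinarith

/-- The sequence of thresholds. -/
def seqc (N b q n : ℕ) : ℕ → ℕ
  | 0 => b * bnd b N + q.factorial ^ N * q + 1
  | j + 1 => max (seqc N b q n j) (thr N b q n (seqc N b q n j) + 1)

/-- The final bound. -/
def bound (N b q n : ℕ) : ℕ :=
  (Finset.range (2 * (N ^ N * (b * bnd b N)) + 1)).sup
    fun j => max (N ^ N * (b * bnd b N)) (thr N b q n (seqc N b q n j))

/-- Jordan's argument: an abelian subgroup of bounded index. -/
theorem exists_comm_bounded [IsAlgClosed F] {p q n : ℕ} [Fact p.Prime] [CharP E p]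
    (S : Setup F ρ N b) (hq : ∀ P : Subgroup G, IsPGroup p P → Nat.card P ≤ q)
    (hn : ∀ g : G, Nat.card {z : Subgroup.center G // IsConj g (g * z)} ≤ n) :
    ∃ A : Subgroup G, Comm A ∧ Nat.card G ≤ bound N b q n * Nat.card A := by
  classical
  letI := Fintype.ofFinite G
  set K := N ^ N * (b * bnd b N) with hK
  set c := seqc N b q n with hc
  have hmono : Monotone c := monotone_nat_of_le_succ fun j => le_max_left _ _
  have h0 : ∀ j, b * bnd b N ≤ c j ∧ q.factorial ^ N * q ≤ c j ∧ 1 ≤ c j := fun j => by
    have := hmono (Nat.zero_le j)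
    simp only [hc, seqc] at this ⊢
    omega
  by_cases hgap : ∃ j ∈ Finset.range (2 * K + 1), ∀ A : Subgroup G,
      Family F ρ N b (c j) A → Family F ρ N b (thr N b q n (c j) + 1) A
  · obtain ⟨j, hj, hgap⟩ := hgap
    obtain ⟨A, hA, hcard⟩ := exists_of_gap S hq hn (h0 j).1 (h0 j).2.1 hgap
    refine ⟨A, hA, hcard.trans (Nat.mul_le_mul_right _ ?_)⟩
    exact Finset.le_sup (f := fun j => max K (thr N b q n (c j))) hj
  · exfalso
    push Not at hgap
    choose A hA hA' using hgap
    set Z := Subgroup.center G with hZ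
    have hup : ∀ j (hj : j ∈ Finset.range (2 * K + 1)),
        Nat.card (A j hj) ≤ c (j + 1) * Nat.card Z := by
      intro j hj
      by_contra hcon
      push Not at hcon
      exact hA' j hj ⟨(hA j hj).1, lt_of_le_of_lt (Nat.mul_le_mul_right _ (le_max_right _ _)) hcon⟩
    have hnorm : ∀ j (hj : j ∈ Finset.range (2 * K + 1)),
        Nat.card (Subgroup.normalizer (A j hj : Set G)) ≤ K * Nat.card (A j hj) := fun j hj =>
      (hA j hj).1.card_normalizer_le S hq
        (lt_of_le_of_lt (Nat.mul_le_mul_right _ (h0 j).2.1) (hA j hj).2)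
    let orbit : {j // j ∈ Finset.range (2 * K + 1)} → Finset (Subgroup G) := fun j =>
      (Finset.univ : Finset G).image fun g => (A j.1 j.2).map (MulAut.conj g).toMonoidHom
    have hcardO : ∀ j, ∀ B ∈ orbit j, Nat.card B = Nat.card (A j.1 j.2) := by
      intro j B hB
      obtain ⟨g, -, rfl⟩ := Finset.mem_image.1 hB
      exact Subgroup.card_map_of_injective (MulAut.conj g).injective
    have hdisj : ((Finset.univ : Finset {j // j ∈ Finset.range (2 * K + 1)}) :
        Set _).PairwiseDisjoint orbit := by
      intro i _ j _ hne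
      rw [Function.onFun, Finset.disjoint_left]
      intro B hBi hBj
      have he := (hcardO i B hBi).symm.trans (hcardO j B hBj)
      rcases lt_or_gt_of_ne (fun h => hne (Subtype.ext h) : i.1 ≠ j.1) with h | h
      · have h1 := lt_of_le_of_lt (Nat.mul_le_mul_right (Nat.card Z) (hmono h)) (hA j.1 j.2).2
        have h2 := hup i.1 i.2
        simp only [Nat.succ_eq_add_one] at h1
        omega
      · have h1 := lt_of_le_of_lt (Nat.mul_le_mul_right (Nat.card Z) (hmono h)) (hA i.1 i.2).2
        have h2 := hup j.1 j.2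
        simp only [Nat.succ_eq_add_one] at h1
        omega
    have hsub : Finset.univ.biUnion orbit ⊆
        (Finset.univ : Finset (Subgroup G)).filter (Family F ρ N b (c 0)) := by
      intro B hB
      obtain ⟨j, -, hBj⟩ := Finset.mem_biUnion.1 hB
      refine Finset.mem_filter.2 ⟨Finset.mem_univ _, ?_, ?_⟩
      · obtain ⟨g, -, rfl⟩ := Finset.mem_image.1 hBj
        exact (hA j.1 j.2).1.map_conj g
      · rw [hcardO j B hBj]
        exact lt_of_le_of_lt (Nat.mul_le_mul_right _ (hmono (Nat.zero_le _))) (hA j.1 j.2).2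
    have hlow : ∀ j, Nat.card G ≤ 2 * K * ∑ B ∈ orbit j, (Nat.card B - Nat.card Z) := by
      intro j
      have hfib : (Finset.univ : Finset G).card ≤
          Nat.card (Subgroup.normalizer (A j.1 j.2 : Set G)) * (orbit j).card := by
        refine Finset.card_le_mul_card_image _ _ fun B hB => ?_
        obtain ⟨g₀, -, rfl⟩ := Finset.mem_image.1 hB
        rw [Nat.card_eq_fintype_card, Fintype.card_subtype]
        refine Finset.card_le_card_of_injOn (fun g => g₀⁻¹ * g) (fun g hg => ?_)
          (fun a _ b _ h => mul_left_cancel h)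
        refine Finset.mem_filter.2 ⟨Finset.mem_univ _, ?_⟩
        have heq := (Finset.mem_filter.1 hg).2
        rw [Subgroup.mem_normalizer_iff]
        intro x
        have h1 := SetLike.ext_iff.1 heq (g * x * g⁻¹)
        have h2 : ∀ (g : G) (y : G), y ∈ (A j.1 j.2).map (MulAut.conj g).toMonoidHom ↔
            g⁻¹ * y * g ∈ A j.1 j.2 :=
          fun g y => ⟨by rintro ⟨a, ha', rfl⟩; simpa [mul_assoc] using ha',
            fun h => ⟨_, h, by simp [mul_assoc]⟩⟩
        rw [h2, h2] at h1
        simp only [mul_assoc, inv_mul_cancel_left, inv_mul_cancel, mul_one] at h1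
        simp only [mul_inv_rev, inv_inv, mul_assoc]
        exact h1
      rw [Finset.card_univ, ← Nat.card_eq_fintype_card] at hfib
      refine hfib.trans ((Nat.mul_le_mul_right _ (hnorm j.1 j.2)).trans ?_)
      have hA2 : Nat.card (A j.1 j.2) ≤ 2 * (Nat.card (A j.1 j.2) - Nat.card Z) := by
        have hdvd := Subgroup.card_dvd_of_le (hA j.1 j.2).1.1.2.1
        obtain ⟨d, hd⟩ := hdvd
        have hlt : Nat.card Z < Nat.card (A j.1 j.2) :=
          lt_of_le_of_lt (Nat.le_mul_of_pos_left _ (h0 j.1).2.2) (hA j.1 j.2).2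
        rw [hd] at hlt ⊢
        rcases d with _ | _ | d
        · simp at hlt
        · simp only [Nat.zero_add, mul_one] at hlt
          exact absurd hlt (lt_irrefl _)
        · have hzd : Nat.card (Subgroup.center G) * (d + 1 + 1) =
              Nat.card (Subgroup.center G) * d + 2 * Nat.card (Subgroup.center G) := by ring
          have e0 : Nat.card (Subgroup.center G) = Nat.card Z := rfl
          omega
      rw [Finset.sum_congr rfl fun B hB => by rw [hcardO j B hB], Finset.sum_const, smul_eq_mul]
      calc K * Nat.card (A j.1 j.2) * (orbit j).card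
          ≤ K * (2 * (Nat.card (A j.1 j.2) - Nat.card Z)) * (orbit j).card :=
            Nat.mul_le_mul_right _ (Nat.mul_le_mul_left _ hA2)
        _ = _ := by ring
    have h1 := Finset.card_nsmul_le_sum (Finset.univ : Finset {j // j ∈ Finset.range (2 * K + 1)})
      _ _ fun j _ => hlow j
    rw [← Finset.mul_sum, ← Finset.sum_biUnion hdisj, Finset.card_univ, Fintype.card_coe,
      Finset.card_range, smul_eq_mul] at h1
    have h2 := (Finset.sum_le_sum_of_subset (f := fun B : Subgroup G => Nat.card B - Nat.card Z)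
      hsub).trans (sum_family_le S (c := c 0) (h0 0).2.2)
    have h3 := h1.trans (Nat.mul_le_mul_left _ h2)
    have hpos : 0 < Nat.card G := Nat.card_pos
    nlinarith

end Cfsg.Agent.ModJordan
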