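import Mathlib.LinearAlgebra.FiniteDimensional.Basic
import Mathlib.GroupTheory.Index
import Mathlib.GroupTheory.OrderOfElement
import Mathlib.Algebra.Group.Subgroup.Finite
import Mathlib.Data.SetLike.Fintype
import Mathlib.Algebra.Algebra.Subalgebra.Lattice
import Mathlib.RingTheory.Adjoin.Basic

/-!
# Canonical large abelian subgroups of finite linear groups

An abelian subgroup is *generic* if its subgroups of small index span the same subalgebra.
-/

set_option autoImplicit false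
set_option linter.style.haveILetI false
set_option linter.unusedSectionVars false

namespace Cfsg.Agent.ModJordan

variable {G : Type*} [Group G] [Finite G] {F : Type*} [Field F] {E : Type*} [Ring E]
  [Algebra F E] [FiniteDimensional F E] (ρ : G →* E)

variable (F) in
/-- The subalgebra spanned by the image of a subgroup. -/
def alg (A : Subgroup G) : Subalgebra F E := Algebra.adjoin F (ρ '' (A : Set G))

variable (F) in
/-- The elements whose image lies in the subalgebra spanned by a subgroup. -/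
def cl (A : Subgroup G) : Subgroup G where
  carrier := {g | ρ g ∈ alg F ρ A}
  one_mem' := by
    show ρ 1 ∈ alg F ρ A
    rw [map_one]; exact (alg F ρ A).one_mem
  mul_mem' := fun {a b} ha hb => by
    show ρ (a * b) ∈ alg F ρ A
    rw [map_mul]; exact (alg F ρ A).mul_mem ha hb
  inv_mem' := fun {a} ha => by
    show ρ a⁻¹ ∈ alg F ρ A
    have h : a⁻¹ = a ^ (orderOf a - 1) := by
      refine inv_eq_of_mul_eq_one_right ?_
      rw [← pow_succ', Nat.sub_add_cancel (orderOf_pos a), pow_orderOf_eq_one]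
    rw [h, map_pow]; exact (alg F ρ A).pow_mem ha _

variable (F) in
/-- The dimension of the spanned subalgebra. -/
noncomputable def dim (A : Subgroup G) : ℕ := Module.finrank F (alg F ρ A)

theorem alg_mono {A B : Subgroup G} (h : A ≤ B) : alg F ρ A ≤ alg F ρ B :=
  Algebra.adjoin_mono (Set.image_mono h)

theorem le_cl (A : Subgroup G) : A ≤ cl F ρ A := fun g hg =>
  Algebra.subset_adjoin (Set.mem_image_of_mem ρ hg)

theorem alg_le_of_le_cl {A B : Subgroup G} (h : A ≤ cl F ρ B) : alg F ρ A ≤ alg F ρ B :=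
  Algebra.adjoin_le (by rintro _ ⟨a, ha, rfl⟩; exact h ha)

theorem cl_mono {A B : Subgroup G} (h : A ≤ B) : cl F ρ A ≤ cl F ρ B := fun _ hg =>
  alg_mono ρ h hg

theorem alg_cl (A : Subgroup G) : alg F ρ (cl F ρ A) = alg F ρ A :=
  le_antisymm (alg_le_of_le_cl ρ le_rfl) (alg_mono ρ (le_cl ρ A))

theorem cl_cl (A : Subgroup G) : cl F ρ (cl F ρ A) = cl F ρ A := by
  ext g
  show ρ g ∈ alg F ρ (cl F ρ A) ↔ ρ g ∈ alg F ρ A
  rw [alg_cl]

theorem dim_le (A : Subgroup G) : dim F ρ A ≤ Module.finrank F E :=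
  Submodule.finrank_le (Subalgebra.toSubmodule (alg F ρ A))

theorem dim_le_of_le_cl {A B : Subgroup G} (h : A ≤ cl F ρ B) : dim F ρ A ≤ dim F ρ B :=
  Submodule.finrank_mono (s := Subalgebra.toSubmodule (alg F ρ A))
    (t := Subalgebra.toSubmodule (alg F ρ B)) (alg_le_of_le_cl (F := F) ρ h)

theorem cl_eq_of_dim_le {A B : Subgroup G} (h : A ≤ cl F ρ B) (hd : dim F ρ B ≤ dim F ρ A) :
    cl F ρ A = cl F ρ B := by
  have h1 : alg F ρ A = alg F ρ B := Subalgebra.toSubmodule_injective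
    (Submodule.eq_of_le_of_finrank_le (alg_le_of_le_cl (F := F) ρ h : alg F ρ A ≤ alg F ρ B) hd)
  ext g
  show ρ g ∈ alg F ρ A ↔ ρ g ∈ alg F ρ B
  rw [h1]

/-- Pairwise commuting elements. -/
def Comm (A : Subgroup G) : Prop := ∀ x ∈ A, ∀ y ∈ A, Commute x y

theorem Comm.cl {A : Subgroup G} (hA : Comm A) (hinj : Function.Injective ρ) :
    Comm (cl F ρ A) := by
  intro x hx y hy
  have hcomm : ∀ a ∈ ρ '' (A : Set G), ∀ b ∈ ρ '' (A : Set G), a * b = b * a := by
    rintro _ ⟨a, ha, rfl⟩ _ ⟨b, hb, rfl⟩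
    rw [← map_mul, ← map_mul, (hA a ha b hb).eq]
  have := Algebra.isMulCommutative_adjoin F hcomm
  apply hinj
  rw [map_mul, map_mul]
  exact congrArg Subtype.val (mul_comm' (⟨ρ x, hx⟩ : Algebra.adjoin F (ρ '' (A : Set G))) ⟨ρ y, hy⟩)

/-- Thresholds for the index. -/
def bnd (b : ℕ) : ℕ → ℕ
  | 0 => 1
  | k + 1 => b * (bnd b k * bnd b k)

theorem one_le_bnd {b : ℕ} (hb : 1 ≤ b) : ∀ k, 1 ≤ bnd b k
  | 0 => le_rfl
  | k + 1 => Nat.mul_pos hb (Nat.mul_pos (one_le_bnd hb k) (one_le_bnd hb k))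

theorem bnd_mono {b : ℕ} (hb : 1 ≤ b) : Monotone (bnd b) := by
  refine monotone_nat_of_le_succ fun k => ?_
  exact le_trans (Nat.le_mul_of_pos_left _ (one_le_bnd hb k))
    (Nat.le_mul_of_pos_left _ hb)

/-- The common setting: central quotient with almost abelian centralisers. -/
structure Setup (F : Type*) [Field F] {E : Type*} [Ring E] [Algebra F E] (ρ : G →* E)
    (N b : ℕ) : Prop where
  inj : Function.Injective ρ
  dim : Module.finrank F E ≤ N
  one_le : 1 ≤ b
  almost : ∀ g : G, g ∉ Subgroup.center G → ∃ D : Subgroup G, Subgroup.center G ≤ D ∧ Comm D ∧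
    D ≤ Subgroup.centralizer {g} ∧ D.relIndex (Subgroup.centralizer {g}) ≤ b

variable (F) in
/-- A closed abelian subgroup whose subgroups of small index span the same subalgebra. -/
def Generic (N b : ℕ) (A : Subgroup G) : Prop :=
  Comm A ∧ Subgroup.center G ≤ A ∧ cl F ρ A = A ∧
    ∀ X : Subgroup G, Subgroup.center G ≤ X → X ≤ A →
      X.relIndex A ≤ b * bnd b (N - dim F ρ A) → A ≤ cl F ρ X

variable {ρ} {N b : ℕ}

theorem relIndex_le_right {X A B : Subgroup G} (h : A ≤ B) : X.relIndex A ≤ X.relIndex B :=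
  Subgroup.relIndex_le_of_le_right h (Subgroup.index_ne_zero_of_finite (H := X.subgroupOf B))

theorem reduce (S : Setup F ρ N b) (D : Subgroup G) (hD : Comm D)
    (hZ : Subgroup.center G ≤ D) :
    ∃ D' : Subgroup G, D' ≤ D ∧ Subgroup.center G ≤ D' ∧ Generic F ρ N b (cl F ρ D') ∧
      D'.relIndex D ≤ bnd b N ∧
      ∀ A : Subgroup G, Generic F ρ N b A → (D ⊓ A).relIndex A ≤ b → A ≤ cl F ρ D' := by
  classical
  let Inv : Subgroup G → Prop := fun D' => D' ≤ D ∧ Subgroup.center G ≤ D' ∧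
    D'.relIndex D ≤ bnd b (N - dim F ρ D') ∧
    ∀ A : Subgroup G, Generic F ρ N b A → (D ⊓ A).relIndex A ≤ b → A ≤ cl F ρ D'
  have hinit : Inv D := ⟨le_rfl, hZ, by rw [Subgroup.relIndex_self]; exact one_le_bnd S.one_le _,
    fun A hA hi => (hA.2.2.2 _ (le_inf hZ hA.2.1) inf_le_right
      (hi.trans (Nat.le_mul_of_pos_right _ (one_le_bnd S.one_le _)))).trans
      (cl_mono ρ inf_le_left)⟩
  haveI : Nonempty {D' // Inv D'} := ⟨⟨D, hinit⟩⟩
  obtain ⟨⟨D', hle, hZ', hidx, hA'⟩, hmin⟩ :=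
    Finite.exists_min fun D' : {D' // Inv D'} => dim F ρ D'.1
  refine ⟨D', hle, hZ', ⟨Comm.cl ρ (A := D') (fun x hx y hy => hD x (hle hx) y (hle hy)) S.inj,
    hZ'.trans (le_cl ρ D'), cl_cl ρ D', fun X hX hXle hXi => ?_⟩,
    hidx.trans (bnd_mono S.one_le (Nat.sub_le _ _)), hA'⟩
  by_contra hcon
  set d := dim F ρ D' with hd
  have hdcl : dim F ρ (cl F ρ D') = d := by rw [hd, dim, dim, alg_cl]
  rw [hdcl] at hXi
  have hXd : dim F ρ X < d := by
    by_contra h
    push Not at h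
    have h1 := cl_eq_of_dim_le (F := F) ρ hXle h
    exact hcon h1.symm.le
  let D₃ := D' ⊓ X
  have hd3 : dim F ρ D₃ < d :=
    lt_of_le_of_lt (dim_le_of_le_cl ρ ((inf_le_right : D₃ ≤ X).trans (le_cl ρ X))) hXd
  have hdN : d ≤ N := (dim_le ρ D').trans S.dim
  have hidx3 : D₃.relIndex D ≤ bnd b (N - d + 1) := by
    rw [← Subgroup.relIndex_mul_relIndex D₃ D' D inf_le_left hle, bnd]
    have h1 : D₃.relIndex D' ≤ b * bnd b (N - d) := by
      rw [Subgroup.inf_relIndex_left]
      exact (relIndex_le_right (le_cl ρ D')).trans hXi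
    calc D₃.relIndex D' * D'.relIndex D ≤ b * bnd b (N - d) * bnd b (N - d) :=
          Nat.mul_le_mul h1 hidx
      _ = _ := mul_assoc _ _ _
  have hinv : Inv D₃ := by
    refine ⟨inf_le_left.trans hle, le_inf hZ' hX, hidx3.trans (bnd_mono S.one_le (by omega)),
      fun A hA hi => ?_⟩
    have hAle := hA' A hA hi
    have hAd : dim F ρ A < d := by
      rcases lt_or_eq_of_le (dim_le_of_le_cl (F := F) ρ hAle) with h | h
      · exact h
      · exfalso
        have h1 : cl F ρ A = cl F ρ D' := cl_eq_of_dim_le (F := F) ρ hAle h.ge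
        rw [hA.2.2.1] at h1
        subst h1
        exact hcon (hA.2.2.2 X hX hXle (by rwa [hdcl]))
    refine (hA.2.2.2 (D₃ ⊓ A) (le_inf (le_inf hZ' hX) hA.2.1) inf_le_right ?_).trans
      (cl_mono ρ inf_le_left)
    rw [← Subgroup.relIndex_mul_relIndex (D₃ ⊓ A) (D ⊓ A) A
      (inf_le_inf_right A (inf_le_left.trans hle)) inf_le_right]
    have h2 : (D₃ ⊓ A).relIndex (D ⊓ A) ≤ bnd b (N - dim F ρ A) := by
      rw [show (D₃ ⊓ A).relIndex (D ⊓ A) = D₃.relIndex (D ⊓ A) by
        rw [← Subgroup.inf_relIndex_right (D₃ ⊓ A), ← Subgroup.inf_relIndex_right D₃, inf_assoc,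
          show A ⊓ (D ⊓ A) = D ⊓ A from inf_eq_right.2 inf_le_right]]
      exact (relIndex_le_right inf_le_left).trans
        (hidx3.trans (bnd_mono S.one_le (by omega)))
    rw [mul_comm]
    exact Nat.mul_le_mul hi h2
  have := hmin ⟨D₃, hinv⟩
  exact absurd this (not_le.2 hd3)

/-- The canonical generic subgroup above a non-central element. -/
theorem exists_top (S : Setup F ρ N b) {h : G} (hh : h ∉ Subgroup.center G) :
    ∃ D' : Subgroup G, D' ≤ Subgroup.centralizer {h} ∧ Generic F ρ N b (cl F ρ D') ∧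
      D'.relIndex (Subgroup.centralizer {h}) ≤ b * bnd b N ∧
      ∀ A : Subgroup G, Generic F ρ N b A → h ∈ A → A ≤ cl F ρ D' := by
  obtain ⟨D, hZ, hD, hDC, hi⟩ := S.almost h hh
  obtain ⟨D', hle, hZ', hgen, hidx, hA⟩ := reduce S D hD hZ
  refine ⟨D', hle.trans hDC, hgen, ?_, fun A hAg hhA => hA A hAg ?_⟩
  · rw [← Subgroup.relIndex_mul_relIndex D' D _ hle hDC, mul_comm b]
    exact Nat.mul_le_mul hidx hi
  · rw [Subgroup.inf_relIndex_right]
    refine (relIndex_le_right (B := Subgroup.centralizer {h}) fun x hx => ?_).trans hi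
    rw [Subgroup.mem_centralizer_singleton_iff]
    exact (hAg.1 x hx h hhA).eq

variable (F ρ N b) in
/-- Maximal generic subgroups. -/
def MaxGen (A : Subgroup G) : Prop :=
  Generic F ρ N b A ∧ ∀ B : Subgroup G, Generic F ρ N b B → A ≤ B → B = A

theorem exists_maxGen {B : Subgroup G} (hB : Generic F ρ N b B) :
    ∃ A : Subgroup G, MaxGen F ρ N b A ∧ B ≤ A := by
  haveI : Nonempty {A // Generic F ρ N b A ∧ B ≤ A} := ⟨⟨B, hB, le_rfl⟩⟩
  obtain ⟨⟨A, hA, hBA⟩, hmax⟩ :=
    Finite.exists_max fun A : {A // Generic F ρ N b A ∧ B ≤ A} => Nat.card A.1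
  exact ⟨A, ⟨hA, fun C hC hAC => (Subgroup.eq_of_le_of_card_ge hAC
    (hmax ⟨C, hC, hBA.trans hAC⟩)).symm⟩, hBA⟩

/-- A maximal generic subgroup is determined by any of its non-central elements. -/
theorem MaxGen.unique (S : Setup F ρ N b) {A₁ A₂ : Subgroup G} (h₁ : MaxGen F ρ N b A₁)
    (h₂ : MaxGen F ρ N b A₂) {h : G} (hh : h ∉ Subgroup.center G) (m₁ : h ∈ A₁) (m₂ : h ∈ A₂) :
    A₁ = A₂ := by
  obtain ⟨D', -, hgen, -, hA⟩ := exists_top S hh
  rw [← h₁.2 _ hgen (hA A₁ h₁.1 m₁), ← h₂.2 _ hgen (hA A₂ h₂.1 m₂)]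

/-- A generic subgroup through `h` lies in the maximal one through `h`. -/
theorem MaxGen.le_of_mem (S : Setup F ρ N b) {A B : Subgroup G} (hA : MaxGen F ρ N b A)
    (hB : Generic F ρ N b B) {h : G} (hh : h ∉ Subgroup.center G) (m₁ : h ∈ A) (m₂ : h ∈ B) :
    B ≤ A := by
  obtain ⟨D', -, hgen, -, hA'⟩ := exists_top S hh
  rw [← hA.2 _ hgen (hA' A hA.1 m₁)]
  exact hA' B hB m₂

/-- The centraliser of a non-central element of a maximal generic subgroup is close to it. -/
theorem MaxGen.card_centralizer_le (S : Setup F ρ N b) {A : Subgroup G}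
    (hA : MaxGen F ρ N b A) {h : G} (hh : h ∉ Subgroup.center G) (hm : h ∈ A) :
    Nat.card (Subgroup.centralizer ({h} : Set G)) ≤ b * bnd b N * Nat.card A := by
  obtain ⟨D', hle, hgen, hi, hA'⟩ := exists_top S hh
  have h1 : D' ≤ A := hA.2 _ hgen (hA' A hA.1 hm) ▸ le_cl ρ D'
  rw [← Subgroup.relIndex_bot_left (H := Subgroup.centralizer ({h} : Set G)),
    ← Subgroup.relIndex_mul_relIndex ⊥ D' _ bot_le hle, Subgroup.relIndex_bot_left, mul_comm]
  exact Nat.mul_le_mul hi (Subgroup.card_le_of_le h1)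

end Cfsg.Agent.ModJordan
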