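import Cfsg.Agent.ModJordan.Count
import Mathlib.LinearAlgebra.Eigenspace.Triangularizable
import Mathlib.LinearAlgebra.Eigenspace.Basic
import Mathlib.LinearAlgebra.Dimension.Constructions
import Mathlib.LinearAlgebra.FreeModule.Finite.Matrix
import Mathlib.GroupTheory.Sylow
import Mathlib.Algebra.CharP.Algebra

/-!
# Abelian subgroups of bounded index in modular linear groups
-/

set_option autoImplicit false
set_option linter.style.haveILetI false
set_option linter.unusedSectionVars false

namespace Cfsg.Agent.ModJordan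

set_option maxHeartbeats 800000

universe u v w

variable {p : ℕ} [Fact p.Prime]

/-- Groups whose commutators lie in a small normal `p`-subgroup. -/
theorem exists_comm_of_commutator_le {G : Type u} [Group G] [Finite G] {q : ℕ}
    (hq : ∀ P : Subgroup G, IsPGroup p P → Nat.card P ≤ q) (A₀ U : Subgroup G) [U.Normal]
    (hU : IsPGroup p U) (hcomm : ∀ x ∈ A₀, ∀ y ∈ A₀, x * y * x⁻¹ * y⁻¹ ∈ U) :
    ∃ A : Subgroup G, Comm A ∧ Nat.card A₀ ≤ q ^ q * q * Nat.card A := by
  classical
  letI := Fintype.ofFinite G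
  have hp : p.Prime := Fact.out
  have hq1 : 1 ≤ q := by
    have := hq ⊥ IsPGroup.of_bot
    rwa [Subgroup.card_bot] at this
  set C := A₀ ⊓ Subgroup.centralizer (U : Set G) with hCdef
  have hC : Nat.card A₀ ≤ q ^ q * Nat.card C := by
    letI := Fintype.ofFinite U
    let f : A₀ → (U → U) := fun a u =>
      ⟨(a : G) * u * (a : G)⁻¹, Subgroup.Normal.conj_mem inferInstance _ u.2 _⟩
    letI := Fintype.ofFinite A₀
    have hfib : ∀ v ∈ (Finset.univ : Finset A₀).image f,
        (Finset.univ.filter fun a => f a = v).card ≤ Nat.card C := by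
      intro v hv
      obtain ⟨a₀, -, rfl⟩ := Finset.mem_image.1 hv
      rw [Nat.card_eq_fintype_card, Fintype.card_subtype]
      refine Finset.card_le_card_of_injOn (fun a : A₀ => (a₀ : G)⁻¹ * a) (fun a ha => ?_)
        (fun a _ b _ h => Subtype.ext (mul_left_cancel h))
      refine Finset.mem_filter.2 ⟨Finset.mem_univ _, A₀.mul_mem (A₀.inv_mem a₀.2) a.2, ?_⟩
      refine Subgroup.mem_centralizer_iff.2 ?_
      intro u hu
      have h := congrArg Subtype.val (congrFun (Finset.mem_filter.1 ha).2 ⟨u, hu⟩)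
      change (a : G) * u * (a : G)⁻¹ = (a₀ : G) * u * (a₀ : G)⁻¹ at h
      calc u * ((a₀ : G)⁻¹ * a) = (a₀ : G)⁻¹ * ((a₀ : G) * u * (a₀ : G)⁻¹) * a := by group
        _ = (a₀ : G)⁻¹ * a * u := by rw [← h]; group
    have h1 := Finset.card_le_mul_card_image _ _ hfib
    rw [Finset.card_univ, ← Nat.card_eq_fintype_card] at h1
    refine h1.trans ?_
    rw [mul_comm]
    refine Nat.mul_le_mul_right _ ((Finset.card_le_univ _).trans ?_)
    rw [Fintype.card_fun, ← Nat.card_eq_fintype_card]
    exact (Nat.pow_le_pow_left (hq U hU) _).trans (Nat.pow_le_pow_right hq1 (hq U hU))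
  set S : Set G := {x | x ∈ C ∧ ¬ p ∣ orderOf x} with hS
  have hScomm : ∀ x ∈ S, ∀ y ∈ S, Commute x y := by
    rintro x ⟨hxC, hxp⟩ y ⟨hyC, -⟩
    set w := x * y * x⁻¹ * y⁻¹ with hw
    have hwU : w ∈ U := hcomm x hxC.1 y hyC.1
    have hwx : x * w = w * x :=
      (Subgroup.mem_centralizer_iff.1 hxC.2 w hwU).symm
    have hpow : ∀ k : ℕ, x ^ k * y = w ^ k * y * x ^ k := by
      intro k
      induction k with
      | zero => simp
      | succ k ih =>
        calc x ^ (k + 1) * y = x * (x ^ k * y) := by rw [pow_succ', mul_assoc]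
          _ = x * w ^ k * (y * x ^ k) := by rw [ih]; simp [mul_assoc]
          _ = w ^ k * x * (y * x ^ k) := by rw [((show Commute x w from hwx).pow_right k).eq]
          _ = w ^ k * (w * y * x) * x ^ k := by rw [hw]; simp [mul_assoc]
          _ = w ^ (k + 1) * y * x ^ (k + 1) := by rw [pow_succ w k, pow_succ' x k]; simp [mul_assoc]
    have h1 := hpow (orderOf x)
    rw [pow_orderOf_eq_one, one_mul, mul_one] at h1
    have h2 : w ^ orderOf x = 1 := mul_eq_right.1 h1.symm
    obtain ⟨j, hj⟩ := hU ⟨w, hwU⟩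
    have h3 : w ^ p ^ j = 1 := congrArg Subtype.val hj
    have h4 : w = 1 := by
      rw [← orderOf_eq_one_iff]
      exact Nat.eq_one_of_dvd_coprimes
        ((hp.coprime_iff_not_dvd.2 hxp).pow_left j)
        (orderOf_dvd_of_pow_eq_one h3) (orderOf_dvd_of_pow_eq_one h2)
    show x * y = y * x
    calc x * y = w * y * x := by rw [hw]; group
      _ = y * x := by rw [h4, one_mul]
  set A := Subgroup.closure S with hA
  have hAcomm : Comm A := by
    have h1 : A ≤ Subgroup.centralizer S := (Subgroup.closure_le _).2 fun x hx =>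
      Subgroup.mem_centralizer_iff.2 fun y hy => (hScomm y hy x hx).eq
    have h2 : A ≤ Subgroup.centralizer (A : Set G) := (Subgroup.closure_le _).2 fun x hx =>
      Subgroup.mem_centralizer_iff.2 fun y hy =>
        (Subgroup.mem_centralizer_iff.1 (h1 hy) x hx).symm
    exact fun x hx y hy => (Subgroup.mem_centralizer_iff.1 (h2 hx) y hy).symm
  have hAC : A ≤ C := (Subgroup.closure_le _).2 fun x hx => hx.1
  refine ⟨A, hAcomm, hC.trans ?_⟩
  rw [mul_assoc]
  refine Nat.mul_le_mul_left _ ?_
  obtain ⟨P⟩ := (inferInstance : Nonempty (Sylow p C))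
  have hPq : Nat.card (P : Subgroup C) ≤ q := by
    rw [← Subgroup.card_map_of_injective (f := C.subtype) C.subtype_injective]
    exact hq _ (P.isPGroup'.map _)
  have hdvd : Nat.card C ∣ Nat.card A * Nat.card (P : Subgroup C) := by
    rw [Nat.dvd_iff_prime_pow_dvd_dvd]
    intro r k hr hrk
    haveI : Fact r.Prime := ⟨hr⟩
    by_cases hrp : r = p
    · subst hrp
      exact Dvd.dvd.mul_left (P.pow_dvd_card_of_pow_dvd_card hrk) _
    · refine Dvd.dvd.mul_right ?_ _
      obtain ⟨R, hR⟩ := Sylow.exists_subgroup_card_pow_prime r hrk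
      have hle : R.map C.subtype ≤ A := by
        rintro _ ⟨x, hx, rfl⟩
        refine Subgroup.subset_closure ⟨x.2, fun hd => hrp ?_⟩
        have h1 : orderOf (x : G) ∣ r ^ k := by
          rw [Subgroup.orderOf_coe, ← hR]
          exact Subgroup.orderOf_dvd_natCard R hx
        exact ((Nat.prime_dvd_prime_iff_eq hp hr).1 (hp.dvd_of_dvd_pow (hd.trans h1))).symm
      rw [← hR, ← Subgroup.card_map_of_injective (f := C.subtype) C.subtype_injective]
      exact Subgroup.card_dvd_of_le hle
  refine (Nat.le_of_dvd (Nat.mul_pos Nat.card_pos Nat.card_pos) hdvd).trans ?_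
  rw [mul_comm q]
  exact Nat.mul_le_mul_left _ hPq

/-- The `p`-subgroups of a quotient are no larger. -/
theorem card_le_of_quotient {G : Type u} [Group G] [Finite G] {q : ℕ}
    (hq : ∀ P : Subgroup G, IsPGroup p P → Nat.card P ≤ q) (K : Subgroup G) [K.Normal]
    (P : Subgroup (G ⧸ K)) (hP : IsPGroup p P) : Nat.card P ≤ q := by
  obtain ⟨k, hk⟩ := IsPGroup.iff_card.1 hP
  obtain ⟨R, hR⟩ := Sylow.exists_subgroup_card_pow_prime p (G := G) (n := k)
    (hk ▸ (Subgroup.card_subgroup_dvd_card P).trans (Subgroup.card_quotient_dvd_card K))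
  rw [hk, ← hR]
  exact hq R (IsPGroup.of_card hR)

/-- The statement in dimension at most `d`. -/
def Bounded (p q d B : ℕ) : Prop :=
  ∀ (G : Type u) [Group G] [Finite G] (F : Type v) [Field F] [IsAlgClosed F] [CharP F p]
    (V : Type w) [AddCommGroup V] [Module F V] [FiniteDimensional F V],
    Module.finrank F V ≤ d → ∀ ρ : G →* Module.End F V, Function.Injective ρ →
    (∀ P : Subgroup G, IsPGroup p P → Nat.card P ≤ q) →
    ∃ A : Subgroup G, Comm A ∧ Nat.card G ≤ B * Nat.card A

section Invariant

variable {G : Type u} [Group G] [Finite G] {F : Type v} [Field F] {V : Type w} [AddCommGroup V]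
  [Module F V] (ρ : G →* Module.End F V) {W : Submodule F V}
  (hinv : ∀ g : G, ∀ v ∈ W, ρ g v ∈ W)

/-- The action on an invariant submodule. -/
def subRep : G →* Module.End F W where
  toFun g := (ρ g).restrict (hinv g)
  map_one' := LinearMap.ext fun v => Subtype.ext (by simp)
  map_mul' g h := LinearMap.ext fun v => Subtype.ext (by simp)

/-- The action on the quotient by an invariant submodule. -/
def quotRep : G →* Module.End F (V ⧸ W) where
  toFun g := W.mapQ W (ρ g) fun v hv => hinv g v hv
  map_one' := Submodule.linearMap_qext _ (LinearMap.ext fun v => by simp)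
  map_mul' g h := Submodule.linearMap_qext _ (LinearMap.ext fun v => by simp)

theorem pow_eq_one_of_trivial [CharP F p] [Nontrivial V] (hinj : Function.Injective ρ) {x : G}
    (h₁ : subRep ρ hinv x = 1) (h₂ : quotRep ρ hinv x = 1) : x ^ p = 1 := by
  haveI : CharP (Module.End F V) p :=
    charP_of_injective_algebraMap (algebraMap F (Module.End F V)).injective p
  have hmem : ∀ v, (ρ x - 1 : Module.End F V) v ∈ W := by
    intro v
    have h := LinearMap.congr_fun h₂ (Submodule.Quotient.mk v)
    simp only [quotRep, MonoidHom.coe_mk, OneHom.coe_mk, Submodule.mapQ_apply,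
      Module.End.one_apply, Submodule.Quotient.eq] at h
    simpa using h
  have hzero : ∀ v ∈ W, (ρ x - 1 : Module.End F V) v = 0 := by
    intro v hv
    have h := LinearMap.congr_fun h₁ ⟨v, hv⟩
    have h' : ρ x v = v := congrArg Subtype.val h
    simp [h']
  have h2 : (ρ x - 1 : Module.End F V) ^ p = 0 := by
    refine pow_eq_zero_of_le (Fact.out : p.Prime).two_le ?_
    refine LinearMap.ext fun v => ?_
    rw [pow_two]
    exact hzero _ (hmem v)
  rw [sub_pow_char_of_commute p (Commute.one_right (ρ x)), one_pow, sub_eq_zero] at h2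
  exact hinj (by rw [map_pow, map_one]; exact h2)

end Invariant

theorem index_comap_le {G : Type u} [Group G] [Finite G] {B : ℕ} (N : Subgroup G) [N.Normal]
    (A : Subgroup (G ⧸ N)) (h : Nat.card (G ⧸ N) ≤ B * Nat.card A) :
    (A.comap (QuotientGroup.mk' N)).index ≤ B := by
  rw [Subgroup.index_comap_of_surjective _ (QuotientGroup.mk'_surjective N)]
  rw [← Subgroup.card_mul_index A, mul_comm B] at h
  exact Nat.le_of_mul_le_mul_left h Nat.card_pos

theorem commutator_mem {G : Type u} [Group G] (N : Subgroup G) [N.Normal] (A : Subgroup (G ⧸ N))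
    (hA : Comm A) {x y : G} (hx : x ∈ A.comap (QuotientGroup.mk' N))
    (hy : y ∈ A.comap (QuotientGroup.mk' N)) : x * y * x⁻¹ * y⁻¹ ∈ N := by
  apply (QuotientGroup.eq_one_iff _).1
  show QuotientGroup.mk' N (x * y * x⁻¹ * y⁻¹) = 1
  rw [map_mul, map_mul, map_mul, map_inv, map_inv, (hA _ hx _ hy).eq, mul_inv_cancel_right,
    mul_inv_cancel]

theorem lift_ker_injective {G : Type u} [Group G] {M : Type w} [Monoid M] (f : G →* M) :
    Function.Injective (QuotientGroup.lift f.ker f le_rfl) := by
  intro a b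
  refine QuotientGroup.induction_on a fun x => QuotientGroup.induction_on b fun y h => ?_
  have h' : f x = f y := h
  refine QuotientGroup.eq.2 (MonoidHom.mem_ker.2 ?_)
  rw [map_mul, ← h', ← map_mul, inv_mul_cancel, map_one]

theorem of_reducible {q d B : ℕ} (hB : Bounded.{u, v, w} p q d B) (G : Type u) [Group G]
    [Finite G] (F : Type v) [Field F] [IsAlgClosed F] [CharP F p] (V : Type w) [AddCommGroup V]
    [Module F V] [FiniteDimensional F V] (hV : Module.finrank F V ≤ d + 1)
    (ρ : G →* Module.End F V) (hinj : Function.Injective ρ)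
    (hq : ∀ P : Subgroup G, IsPGroup p P → Nat.card P ≤ q) (W : Submodule F V)
    (hW0 : W ≠ ⊥) (hW1 : W ≠ ⊤) (hinv : ∀ g : G, ∀ v ∈ W, ρ g v ∈ W) :
    ∃ A : Subgroup G, Comm A ∧ Nat.card G ≤ B * B * (q ^ q * q) * Nat.card A := by
  haveI : Nontrivial V := by
    by_contra h
    rw [not_nontrivial_iff_subsingleton] at h
    exact hW0 (Subsingleton.elim _ _)
  have hd1 : Module.finrank F W ≤ d := by
    have := Submodule.finrank_lt hW1
    omega
  have hd2 : Module.finrank F (V ⧸ W) ≤ d := by
    have h1 := Submodule.finrank_quotient_add_finrank W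
    have h2 : Module.finrank F W ≠ 0 := fun h => hW0 (Submodule.finrank_eq_zero.1 h)
    omega
  obtain ⟨A₁, hA₁, hc₁⟩ := hB (G ⧸ (subRep ρ hinv).ker) F W hd1
    (QuotientGroup.lift _ (subRep ρ hinv) le_rfl)
    (lift_ker_injective _) (card_le_of_quotient hq _)
  obtain ⟨A₂, hA₂, hc₂⟩ := hB (G ⧸ (quotRep ρ hinv).ker) F (V ⧸ W) hd2
    (QuotientGroup.lift _ (quotRep ρ hinv) le_rfl)
    (lift_ker_injective _) (card_le_of_quotient hq _)
  have hU : IsPGroup p ((subRep ρ hinv).ker ⊓ (quotRep ρ hinv).ker : Subgroup G) :=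
    fun x => ⟨1, Subtype.ext (by
      rw [SubmonoidClass.coe_pow, pow_one]
      exact pow_eq_one_of_trivial ρ hinv hinj (MonoidHom.mem_ker.1 x.2.1)
        (MonoidHom.mem_ker.1 x.2.2))⟩
  obtain ⟨A, hA, hcA⟩ := exists_comm_of_commutator_le hq
    (A₁.comap (QuotientGroup.mk' _) ⊓ A₂.comap (QuotientGroup.mk' _))
    ((subRep ρ hinv).ker ⊓ (quotRep ρ hinv).ker) hU
    fun x hx y hy => ⟨commutator_mem _ A₁ hA₁ hx.1 hy.1, commutator_mem _ A₂ hA₂ hx.2 hy.2⟩
  refine ⟨A, hA, ?_⟩
  calc Nat.card G = _ := (Subgroup.card_mul_index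
        (A₁.comap (QuotientGroup.mk' _) ⊓ A₂.comap (QuotientGroup.mk' _))).symm
    _ ≤ (q ^ q * q * Nat.card A) * (B * B) := Nat.mul_le_mul hcA
        (Subgroup.index_inf_le.trans
          (Nat.mul_le_mul (index_comap_le _ A₁ hc₁) (index_comap_le _ A₂ hc₂)))
    _ = _ := by ring

/-- The bounds by dimension. -/
def dimBound (q : ℕ) : ℕ → ℕ
  | 0 => 1
  | d + 1 =>
    let R := dimBound q d * dimBound q d * (q ^ q * q) + 1
    max R (bound ((d + 1) * (d + 1)) R q (d + 1))

theorem bounded (q : ℕ) : ∀ d, Bounded.{u, v, w} p q d (dimBound q d) := by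
  intro d
  induction d with
  | zero =>
    intro G _ _ F _ _ _ V _ _ _ hV ρ hinj _
    haveI : Subsingleton V := Module.finrank_zero_iff.1 (Nat.le_zero.1 hV)
    haveI : Subsingleton G := hinj.subsingleton
    refine ⟨⊤, fun x _ y _ => Subsingleton.elim _ _, ?_⟩
    rw [dimBound, one_mul, Subgroup.card_top]
  | succ d ih =>
    intro G _ _ F _ _ _ V _ _ _ hV ρ hinj hq
    classical
    set R := dimBound q d * dimBound q d * (q ^ q * q) + 1 with hR
    by_cases hred : ∃ W : Submodule F V, W ≠ ⊥ ∧ W ≠ ⊤ ∧ ∀ g : G, ∀ v ∈ W, ρ g v ∈ W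
    · obtain ⟨W, h0, h1, hinv⟩ := hred
      obtain ⟨A, hA, hcA⟩ := of_reducible ih G F V hV ρ hinj hq W h0 h1 hinv
      refine ⟨A, hA, hcA.trans (Nat.mul_le_mul_right _ ?_)⟩
      show _ ≤ max R _
      omega
    push Not at hred
    rcases subsingleton_or_nontrivial V with hV0 | hV0
    · haveI : Subsingleton G := hinj.subsingleton
      refine ⟨⊤, fun x _ y _ => Subsingleton.elim _ _, ?_⟩
      rw [Subgroup.card_top]
      exact Nat.le_mul_of_pos_left _ (lt_of_lt_of_le (show 0 < R by omega) (le_max_left _ _))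
    haveI : CharP (Module.End F V) p :=
      charP_of_injective_algebraMap (algebraMap F (Module.End F V)).injective p
    -- central elements are scalars
    have hscalar : ∀ z ∈ Subgroup.center G, ∃ c : F, ∀ v, ρ z v = c • v := by
      intro z hz
      obtain ⟨c, hc⟩ := Module.End.exists_eigenvalue (ρ z)
      refine ⟨c, fun v => ?_⟩
      have hne : Module.End.eigenspace (ρ z) c ≠ ⊥ := hc
      by_cases htop : Module.End.eigenspace (ρ z) c = ⊤
      · exact Module.End.mem_eigenspace_iff.1 (htop ▸ Submodule.mem_top)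
      · obtain ⟨g, w, hw, hw'⟩ := hred _ hne htop
        refine absurd ?_ hw'
        rw [Module.End.mem_eigenspace_iff] at hw ⊢
        calc ρ z (ρ g w) = (ρ z * ρ g) w := rfl
          _ = (ρ g * ρ z) w := by rw [← map_mul, ← map_mul, (Subgroup.mem_center_iff.1 hz g).symm]
          _ = c • ρ g w := by show ρ g (ρ z w) = _; rw [hw, map_smul]
    have halmost : ∀ g : G, g ∉ Subgroup.center G → ∃ D : Subgroup G,
        Subgroup.center G ≤ D ∧ Comm D ∧ D ≤ Subgroup.centralizer {g} ∧
          D.relIndex (Subgroup.centralizer {g}) ≤ R := by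
      intro g hg
      obtain ⟨c, hc⟩ := Module.End.exists_eigenvalue (ρ g)
      set W := Module.End.eigenspace (ρ g) c with hW
      have h1 : W ≠ ⊤ := fun htop => hg (Subgroup.mem_center_iff.2 fun x => hinj (by
        have hgv : ∀ v, ρ g v = c • v := fun v =>
          Module.End.mem_eigenspace_iff.1 (by rw [← hW, htop]; exact Submodule.mem_top)
        refine LinearMap.ext fun v => ?_
        rw [map_mul, map_mul]
        show ρ x (ρ g v) = ρ g (ρ x v)
        rw [hgv, hgv, map_smul]))
      set C := Subgroup.centralizer ({g} : Set G) with hC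
      have hCinv : ∀ x : C, ∀ v ∈ W, ρ (x : G) v ∈ W := by
        intro x v hv
        rw [Module.End.mem_eigenspace_iff] at hv ⊢
        calc ρ g (ρ (x : G) v) = (ρ g * ρ (x : G)) v := rfl
          _ = (ρ (x : G) * ρ g) v := by
            rw [← map_mul, ← map_mul, Subgroup.mem_centralizer_singleton_iff.1 x.2]
          _ = c • ρ (x : G) v := by show ρ _ (ρ g v) = _; rw [hv, map_smul]
      obtain ⟨A, hA, hcA⟩ := of_reducible ih C F V hV (ρ.comp C.subtype)
        (hinj.comp C.subtype_injective) (fun P hP => by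
          rw [← Subgroup.card_map_of_injective (f := C.subtype) C.subtype_injective]
          exact hq _ (hP.map _)) W hc h1 hCinv
      have hZC : Subgroup.center G ≤ C := fun z hz =>
        Subgroup.mem_centralizer_singleton_iff.2 (Subgroup.mem_center_iff.1 hz g).symm
      set D := A.map C.subtype ⊔ Subgroup.center G with hD
      have hDcomm : Comm D := by
        have hA' : Comm (A.map C.subtype) := by
          rintro _ ⟨a, ha, rfl⟩ _ ⟨b, hb, rfl⟩
          exact (hA a ha b hb).map C.subtype
        intro x hx y hy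
        obtain ⟨a, ha, z, hz, rfl⟩ := Subgroup.mem_sup_of_normal_right.1 hx
        obtain ⟨b, hb, z', hz', rfl⟩ := Subgroup.mem_sup_of_normal_right.1 hy
        have hzc : ∀ w, Commute z w := fun w => (Subgroup.mem_center_iff.1 hz w).symm
        have hzc' : ∀ w, Commute w z' := fun w => Subgroup.mem_center_iff.1 hz' w
        exact ((hA' a ha b hb).mul_right (hzc' a)).mul_left (hzc _)
      have hDC : D ≤ C := sup_le (Subgroup.map_subtype_le A) hZC
      refine ⟨D, le_sup_right, hDcomm, hDC, ?_⟩
      have h2 := card_mul_relIndex' hDC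
      have h3 : Nat.card A ≤ Nat.card D := by
        rw [← Subgroup.card_map_of_injective (f := C.subtype) C.subtype_injective]
        exact Subgroup.card_le_of_le le_sup_left
      have h4 : Nat.card D * D.relIndex C ≤ Nat.card D * R := by
        rw [h2, mul_comm _ R]
        refine hcA.trans ((Nat.mul_le_mul_left _ h3).trans (Nat.mul_le_mul_right _ ?_))
        omega
      exact Nat.le_of_mul_le_mul_left h4 Nat.card_pos
    have hS : Setup F ρ ((d + 1) * (d + 1)) R :=
      ⟨hinj, by rw [Module.finrank_linearMap]; exact Nat.mul_le_mul hV hV, by omega, halmost⟩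
    have hn : ∀ g : G, Nat.card {z : Subgroup.center G // IsConj g (g * z)} ≤ d + 1 := by
      intro g
      obtain ⟨μ, hμ⟩ := Module.End.exists_eigenvalue (ρ g)
      have hμ0 : μ ≠ 0 := by
        intro h0
        obtain ⟨v, hv⟩ := hμ.exists_hasEigenvector
        have h1 := hv.apply_eq_smul
        rw [h0, zero_smul] at h1
        refine hv.2 ?_
        have h2 := congrArg (ρ g⁻¹) h1
        rw [map_zero] at h2
        calc v = (ρ g⁻¹ * ρ g) v := by rw [← map_mul, inv_mul_cancel, map_one]; rfl
          _ = 0 := h2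
      choose c hc using fun z : {z : Subgroup.center G // IsConj g (g * z)} =>
        hscalar z.1 z.1.2
      have heig : ∀ z, Module.End.HasEigenvalue (ρ g) (c z * μ) := by
        intro z
        obtain ⟨x, hx⟩ := isConj_iff.1 z.2
        obtain ⟨v, hv⟩ := hμ.exists_hasEigenvector
        refine Module.End.hasEigenvalue_of_hasEigenvector (x := ρ x⁻¹ v) ⟨?_, ?_⟩
        · rw [Module.End.mem_eigenspace_iff]
          calc ρ g (ρ x⁻¹ v) = (ρ x⁻¹ * (ρ x * ρ g * ρ x⁻¹)) v := by
                rw [← map_mul, ← map_mul, ← map_mul]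
                show _ = ρ (x⁻¹ * (x * g * x⁻¹)) v
                rw [show x⁻¹ * (x * g * x⁻¹) = g * x⁻¹ by group, map_mul]
                rfl
            _ = ρ x⁻¹ (ρ (g * z.1) v) := by rw [← map_mul, ← map_mul, hx]; rfl
            _ = ρ x⁻¹ (ρ g (ρ (z.1 : G) v)) := by rw [map_mul]; rfl
            _ = _ := by rw [hc z, map_smul, hv.apply_eq_smul, map_smul, map_smul, smul_smul]
        · intro h0
          refine hv.2 ?_
          have h2 := congrArg (ρ x) h0
          rw [map_zero] at h2
          calc v = (ρ x * ρ x⁻¹) v := by rw [← map_mul, mul_inv_cancel, map_one]; rfl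
            _ = 0 := h2
      choose v hv using fun z => (heig z).exists_hasEigenvector
      have hinjc : Function.Injective fun z => c z * μ := by
        intro z z' h
        have h1 : c z = c z' := mul_right_cancel₀ hμ0 h
        exact Subtype.ext (Subtype.ext (hinj (LinearMap.ext fun w => by rw [hc, hc, h1])))
      letI := Fintype.ofFinite {z : Subgroup.center G // IsConj g (g * z)}
      have hli := Module.End.eigenvectors_linearIndependent' (ρ g) _ hinjc v hv
      rw [Nat.card_eq_fintype_card]
      exact hli.fintype_card_le_finrank.trans hV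
    obtain ⟨A, hA, hcA⟩ := exists_comm_bounded (p := p) hS hq hn
    exact ⟨A, hA, hcA.trans (Nat.mul_le_mul_right _ (le_max_right _ _))⟩

end Cfsg.Agent.ModJordan
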