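import Cfsg.Agent.ModJordan.Generic
import Mathlib.FieldTheory.IsAlgClosed.Basic
import Mathlib.LinearAlgebra.FreeModule.Finite.Matrix
import Mathlib.RingTheory.Nilpotent.Lemmas
import Mathlib.RingTheory.Ideal.Quotient.Operations
import Mathlib.Algebra.CharP.Lemmas
import Mathlib.GroupTheory.PGroup
import Mathlib.Algebra.Order.BigOperators.Group.Finset

/-!
# Conjugation and normalisers of generic subgroups
-/

set_option autoImplicit false
set_option linter.style.haveILetI false
set_option linter.unusedSectionVars false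

namespace Cfsg.Agent.ModJordan

variable {G : Type*} [Group G] [Finite G] {F : Type*} [Field F] {E : Type*} [Ring E]
  [Algebra F E] [FiniteDimensional F E] {ρ : G →* E} {N b : ℕ}

variable (F) in
/-- Conjugation by the image of a group element. -/
def conjAlg (ρ : G →* E) (g : G) : E →ₐ[F] E where
  toFun x := ρ g * x * ρ g⁻¹
  map_one' := by rw [mul_one, ← map_mul, mul_inv_cancel, map_one]
  map_mul' x y := by
    calc ρ g * (x * y) * ρ g⁻¹ = ρ g * x * 1 * y * ρ g⁻¹ := by simp [mul_assoc]
      _ = ρ g * x * (ρ g⁻¹ * ρ g) * y * ρ g⁻¹ := by rw [← map_mul, inv_mul_cancel, map_one]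
      _ = _ := by simp [mul_assoc]
  map_zero' := by simp
  map_add' x y := by simp [mul_add, add_mul]
  commutes' r := by
    show ρ g * algebraMap F E r * ρ g⁻¹ = algebraMap F E r
    rw [(Algebra.commutes r (ρ g)).symm, mul_assoc, ← map_mul, mul_inv_cancel, map_one, mul_one]

theorem conjAlg_rho (g x : G) : conjAlg F ρ g (ρ x) = ρ (g * x * g⁻¹) := by
  show ρ g * ρ x * ρ g⁻¹ = _
  rw [map_mul, map_mul]

theorem alg_map_conj (g : G) (A : Subgroup G) :
    alg F ρ (A.map (MulAut.conj g).toMonoidHom) = (alg F ρ A).map (conjAlg F ρ g) := by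
  rw [alg, alg, AlgHom.map_adjoin, Subgroup.coe_map, Set.image_image, Set.image_image]
  congr 1
  refine Set.image_congr fun x _ => ?_
  show ρ (g * x * g⁻¹) = conjAlg F ρ g (ρ x)
  rw [conjAlg_rho]

theorem map_conj_map_conj (g : G) (A : Subgroup G) :
    (A.map (MulAut.conj g).toMonoidHom).map (MulAut.conj g⁻¹).toMonoidHom = A := by
  rw [Subgroup.map_map]
  convert Subgroup.map_id A
  ext x
  simp [mul_assoc]

theorem map_cl_le (g : G) (A : Subgroup G) :
    (cl F ρ A).map (MulAut.conj g).toMonoidHom ≤ cl F ρ (A.map (MulAut.conj g).toMonoidHom) := by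
  rintro _ ⟨x, hx, rfl⟩
  show ρ (g * x * g⁻¹) ∈ alg F ρ _
  rw [alg_map_conj, ← conjAlg_rho (F := F)]
  exact ⟨ρ x, hx, rfl⟩

theorem dim_map_conj (g : G) (A : Subgroup G) :
    dim F ρ (A.map (MulAut.conj g).toMonoidHom) = dim F ρ A := by
  have key : ∀ (g : G) (A : Subgroup G),
      dim F ρ (A.map (MulAut.conj g).toMonoidHom) ≤ dim F ρ A := by
    intro g A
    have h := Submodule.finrank_map_le (conjAlg F ρ g).toLinearMap
      (Subalgebra.toSubmodule (alg F ρ A))
    unfold dim
    rw [alg_map_conj]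
    exact h
  refine le_antisymm (key g A) ?_
  have h := key g⁻¹ (A.map (MulAut.conj g).toMonoidHom)
  rwa [map_conj_map_conj] at h

theorem map_conj_center (g : G) :
    (Subgroup.center G).map (MulAut.conj g).toMonoidHom = Subgroup.center G := by
  ext x
  constructor
  · rintro ⟨z, hz, rfl⟩
    show g * z * g⁻¹ ∈ _
    rw [Subgroup.mem_center_iff.1 hz g, mul_inv_cancel_right]
    exact hz
  · intro hx
    exact ⟨x, hx, by show g * x * g⁻¹ = x; rw [Subgroup.mem_center_iff.1 hx g, mul_inv_cancel_right]⟩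

theorem Generic.map_conj {A : Subgroup G} (hA : Generic F ρ N b A) (g : G) :
    Generic F ρ N b (A.map (MulAut.conj g).toMonoidHom) := by
  refine ⟨?_, ?_, le_antisymm ?_ (le_cl ρ _), fun X hX hXA hXi => ?_⟩
  · rintro _ ⟨x, hx, rfl⟩ _ ⟨y, hy, rfl⟩
    exact (hA.1 x hx y hy).map (MulAut.conj g).toMonoidHom
  · rw [← map_conj_center g]
    exact Subgroup.map_mono hA.2.1
  · intro x hx
    have h := map_cl_le (F := F) (ρ := ρ) g⁻¹ (A.map (MulAut.conj g).toMonoidHom)
      (Subgroup.mem_map_of_mem _ hx)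
    rw [map_conj_map_conj, hA.2.2.1] at h
    refine ⟨_, h, ?_⟩
    simp [mul_assoc]
  · have h1 : X.map (MulAut.conj g⁻¹).toMonoidHom ≤ A := by
      rw [← map_conj_map_conj g A]; exact Subgroup.map_mono hXA
    have h2 := hA.2.2.2 (X.map (MulAut.conj g⁻¹).toMonoidHom)
      (by rw [← map_conj_center g⁻¹]; exact Subgroup.map_mono hX) h1 (by
        rw [dim_map_conj] at hXi
        refine le_of_eq_of_le ?_ hXi
        conv_lhs => rw [← map_conj_map_conj g A]
        exact Subgroup.relIndex_map_map_of_injective _ _ (MulAut.conj g⁻¹).injective)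
    refine (Subgroup.map_mono h2).trans ((map_cl_le g _).trans (le_of_eq ?_))
    congr 1
    have h := map_conj_map_conj g⁻¹ X
    rwa [inv_inv] at h

theorem MaxGen.map_conj {A : Subgroup G} (hA : MaxGen F ρ N b A) (g : G) :
    MaxGen F ρ N b (A.map (MulAut.conj g).toMonoidHom) := by
  refine ⟨hA.1.map_conj g, fun B hB hAB => ?_⟩
  have h1 : A ≤ B.map (MulAut.conj g⁻¹).toMonoidHom := by
    rw [← map_conj_map_conj g A]; exact Subgroup.map_mono hAB
  have h2 := hA.2 _ (hB.map_conj g⁻¹) h1
  rw [← h2]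
  have h := map_conj_map_conj g⁻¹ B
  rw [inv_inv] at h
  exact h.symm

theorem eq_one_of_forall_algHom [IsAlgClosed F] {R : Type*} [CommRing R] [Algebra F R]
    [FiniteDimensional F R] {u : R} (h : ∀ φ : R →ₐ[F] F, φ u = 0) : IsNilpotent u := by
  rw [nilpotent_iff_mem_prime]
  intro J hJ
  haveI := hJ
  have hb : Function.Bijective (algebraMap F (R ⧸ J)) :=
    IsAlgClosed.algebraMap_bijective_of_isIntegral
  let e : F ≃ₐ[F] (R ⧸ J) := AlgEquiv.ofBijective (Algebra.ofId F (R ⧸ J)) hb
  have h1 := h (e.symm.toAlgHom.comp (Ideal.Quotient.mkₐ F J))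
  have h2 : Ideal.Quotient.mk J u = 0 :=
    e.symm.injective (h1.trans (map_zero e.symm).symm)
  exact Ideal.Quotient.eq_zero_iff_mem.1 h2

/-- The normaliser of a large maximal generic subgroup is close to it. -/
theorem MaxGen.card_normalizer_le [IsAlgClosed F] {p q : ℕ} [Fact p.Prime] [CharP E p]
    (S : Setup F ρ N b) (hq : ∀ P : Subgroup G, IsPGroup p P → Nat.card P ≤ q)
    {A : Subgroup G} (hA : MaxGen F ρ N b A)
    (hbig : (q.factorial ^ N * q) * Nat.card (Subgroup.center G) < Nat.card A) :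
    Nat.card (Subgroup.normalizer (A : Set G)) ≤ N ^ N * (b * bnd b N) * Nat.card A := by
  classical
  have hq1 : 1 ≤ q := by
    have := hq ⊥ IsPGroup.of_bot
    rwa [Subgroup.card_bot] at this
  have hcomm : ∀ x ∈ ρ '' (A : Set G), ∀ y ∈ ρ '' (A : Set G), x * y = y * x := by
    rintro _ ⟨a, ha, rfl⟩ _ ⟨c, hc, rfl⟩
    rw [← map_mul, ← map_mul, (hA.1.1 a ha c hc).eq]
  haveI : IsMulCommutative (alg F ρ A) := Algebra.isMulCommutative_adjoin F hcomm
  letI : CommRing (alg F ρ A) :=
    { (inferInstance : Ring (alg F ρ A)) with mul_comm := mul_comm' }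
  let el : ∀ x ∈ A, alg F ρ A := fun x hx => ⟨ρ x, le_cl ρ A hx⟩
  haveI : Finite (alg F ρ A →ₐ[F] F) := Finite.of_fintype _
  letI : Fintype (alg F ρ A →ₐ[F] F) := Fintype.ofFinite _
  have hΦ : Nat.card (alg F ρ A →ₐ[F] F) ≤ N :=
    (card_algHom_le_finrank F (alg F ρ A) F).trans ((dim_le ρ A).trans S.dim)
  -- the action of the normaliser
  have hmaps : ∀ g ∈ Subgroup.normalizer (A : Set G), ∀ x ∈ alg F ρ A,
      conjAlg F ρ g x ∈ alg F ρ A := by
    intro g hg x hx
    have h : A.map (MulAut.conj g).toMonoidHom = A := by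
      refine Subgroup.eq_of_le_of_card_ge ?_
        (Subgroup.card_map_of_injective (MulAut.conj g).injective).ge
      rintro _ ⟨y, hy, rfl⟩
      exact (Subgroup.mem_normalizer_iff.1 hg y).1 hy
    have h2 : conjAlg F ρ g x ∈ (alg F ρ A).map (conjAlg F ρ g) := ⟨x, hx, rfl⟩
    rwa [← alg_map_conj, h] at h2
  let T : Subgroup.normalizer (A : Set G) → (alg F ρ A →ₐ[F] F) → (alg F ρ A →ₐ[F] F) :=
    fun g φ => φ.comp (((conjAlg F ρ (g : G)).comp (alg F ρ A).val).codRestrict (alg F ρ A)
      fun x => hmaps g g.2 x x.2)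
  have hT : ∀ (g : Subgroup.normalizer (A : Set G)) (φ : alg F ρ A →ₐ[F] F) (x : G) (hx : x ∈ A),
      T g φ (el x hx) = φ (el ((g : G) * x * (g : G)⁻¹)
        ((Subgroup.mem_normalizer_iff.1 g.2 x).1 hx)) := fun g φ x hx =>
    congrArg φ (Subtype.ext (conjAlg_rho (F := F) (g : G) x))
  -- the kernel of all the maps
  let U : Subgroup G :=
    { carrier := {u | ∃ hu : u ∈ A, ∀ φ : alg F ρ A →ₐ[F] F, φ (el u hu) = 1}
      one_mem' := ⟨A.one_mem, fun φ => by
        rw [show el 1 A.one_mem = 1 from Subtype.ext (map_one ρ), map_one]⟩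
      mul_mem' := by
        rintro u v ⟨hu, hu'⟩ ⟨hv, hv'⟩
        refine ⟨A.mul_mem hu hv, fun φ => ?_⟩
        rw [show el (u * v) (A.mul_mem hu hv) = el u hu * el v hv from Subtype.ext (map_mul ρ u v),
          map_mul, hu', hv', one_mul]
      inv_mem' := by
        rintro u ⟨hu, hu'⟩
        refine ⟨A.inv_mem hu, fun φ => ?_⟩
        have h : el u⁻¹ (A.inv_mem hu) * el u hu = 1 := Subtype.ext (by
          show ρ u⁻¹ * ρ u = 1
          rw [← map_mul, inv_mul_cancel, map_one])
        have := congrArg φ h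
        rwa [map_mul, hu', mul_one, map_one] at this }
  have hUp : IsPGroup p U := by
    rintro ⟨u, hu, hu'⟩
    have hnil : IsNilpotent (el u hu - 1) :=
      eq_one_of_forall_algHom (F := F) fun φ => by rw [map_sub, hu', map_one, sub_self]
    obtain ⟨k, hk⟩ := hnil
    refine ⟨k, Subtype.ext (S.inj ?_)⟩
    have hk' : (ρ u - 1 : E) ^ k = 0 := congrArg Subtype.val hk
    have hkp : k ≤ p ^ k := le_of_lt (Nat.lt_pow_self (Fact.out : p.Prime).one_lt)
    have h0 : (ρ u - 1 : E) ^ p ^ k = 0 := pow_eq_zero_of_le hkp hk'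
    rw [sub_pow_char_pow_of_commute p _ (Commute.one_right (ρ u)), one_pow, sub_eq_zero] at h0
    show ρ ((⟨u, _⟩ : U) ^ p ^ k : U) = ρ 1
    rw [SubmonoidClass.coe_pow, map_pow, map_one]
    exact h0
  have hUq := hq U hUp
  set e := q.factorial with he
  have hUe : ∀ u ∈ U, u ^ e = 1 := fun u hu => orderOf_dvd_iff_pow_eq_one.1
    (Nat.dvd_factorial (orderOf_pos u)
      ((Nat.le_of_dvd Nat.card_pos (Subgroup.orderOf_dvd_natCard U hu)).trans hUq))
  -- an element whose power is not central
  letI := Fintype.ofFinite G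
  obtain ⟨x, hxA, hxe⟩ : ∃ x ∈ A, x ^ e ∉ Subgroup.center G := by
    by_contra hcon
    push Not at hcon
    let rts : Finset F := Polynomial.nthRootsFinset e (1 : F)
    have hrts : rts.card ≤ e := by
      simp only [rts, Polynomial.nthRootsFinset_def]
      exact (Multiset.toFinset_card_le _).trans (Polynomial.card_nthRoots e 1)
    let K : Finset G := Finset.univ.filter fun y => y ∈ A ∧ y ^ e = 1
    have hK : K.card ≤ e ^ N * q := by
      let f : G → (alg F ρ A →ₐ[F] F) → F := fun y φ => if hy : y ∈ A then φ (el y hy) else 0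
      have h1 : K.card ≤ q * (K.image f).card := by
        refine Finset.card_le_mul_card_image K q fun v hv => ?_
        obtain ⟨y, hy, rfl⟩ := Finset.mem_image.1 hv
        have hyA := (Finset.mem_filter.1 hy).2.1
        refine le_trans ?_ hUq
        rw [Nat.card_eq_fintype_card, Fintype.card_subtype]
        refine Finset.card_le_card_of_injOn (fun z => y⁻¹ * z) (fun z hz => ?_)
          (fun z _ z' _ h => mul_left_cancel h)
        obtain ⟨hzK, hfz⟩ := Finset.mem_filter.1 hz
        have hzA := (Finset.mem_filter.1 hzK).2.1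
        refine Finset.mem_filter.2 ⟨Finset.mem_univ _, A.mul_mem (A.inv_mem hyA) hzA, fun φ => ?_⟩
        have hz' : φ (el z hzA) = φ (el y hyA) := by
          have := congrFun hfz φ
          simpa [f, hzA, hyA] using this
        have hone : el y⁻¹ (A.inv_mem hyA) * el y hyA = 1 := Subtype.ext (by
          show ρ y⁻¹ * ρ y = 1
          rw [← map_mul, inv_mul_cancel, map_one])
        rw [show el (y⁻¹ * z) (A.mul_mem (A.inv_mem hyA) hzA) = el y⁻¹ (A.inv_mem hyA) * el z hzA
          from Subtype.ext (map_mul ρ _ z), map_mul, hz', ← map_mul, hone, map_one]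
      have h2 : (K.image f).card ≤ e ^ N := by
        refine le_trans (Finset.card_le_card (t := Fintype.piFinset fun _ => rts) ?_) ?_
        · intro v hv
          obtain ⟨y, hy, rfl⟩ := Finset.mem_image.1 hv
          obtain ⟨-, hyA, hye⟩ := Finset.mem_filter.1 hy
          refine Fintype.mem_piFinset.2 fun φ => ?_
          rw [Polynomial.mem_nthRootsFinset q.factorial_pos]
          show (f y φ) ^ e = 1
          simp only [f, dif_pos hyA]
          rw [← map_pow, show el y hyA ^ e = 1 from Subtype.ext (by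
            show ρ y ^ e = 1
            rw [← map_pow, hye, map_one]), map_one]
        · rw [Fintype.card_piFinset, Finset.prod_const, Finset.card_univ, ← Nat.card_eq_fintype_card]
          exact (Nat.pow_le_pow_left hrts _).trans (Nat.pow_le_pow_right q.factorial_pos hΦ)
      rw [mul_comm]
      exact h1.trans (Nat.mul_le_mul_left _ h2)
    have hA' : (Finset.univ.filter (· ∈ A)).card ≤
        (e ^ N * q) * (Finset.univ.filter (· ∈ Subgroup.center G)).card := by
      refine (Finset.card_le_mul_card_image_of_maps_to (f := fun y => y ^ e) (fun y hy => ?_) _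
        fun v _ => ?_)
      · exact Finset.mem_filter.2 ⟨Finset.mem_univ _, hcon y (Finset.mem_filter.1 hy).2⟩
      · refine le_trans ?_ hK
        rcases Finset.eq_empty_or_nonempty
          ((Finset.univ.filter (· ∈ A)).filter fun y => y ^ e = v) with h | ⟨y₀, hy₀⟩
        · simp [h]
        · obtain ⟨h0A, h0v⟩ := Finset.mem_filter.1 hy₀
          have hy₀A := (Finset.mem_filter.1 h0A).2
          refine Finset.card_le_card_of_injOn (fun y => y₀⁻¹ * y) (fun y hy => ?_)
            (fun z _ z' _ h => mul_left_cancel h)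
          obtain ⟨hyA, hyv⟩ := Finset.mem_filter.1 hy
          have hyA' := (Finset.mem_filter.1 hyA).2
          refine Finset.mem_filter.2 ⟨Finset.mem_univ _, A.mul_mem (A.inv_mem hy₀A) hyA', ?_⟩
          rw [(hA.1.1 _ (A.inv_mem hy₀A) _ hyA').mul_pow, inv_pow, h0v, hyv, inv_mul_cancel]
    rw [← Fintype.card_subtype, ← Fintype.card_subtype, ← Nat.card_eq_fintype_card,
      ← Nat.card_eq_fintype_card] at hA'
    exact absurd hA' (not_le.2 hbig)
  -- the fibres of the action lie in cosets of the centraliser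
  letI := Fintype.ofFinite (Subgroup.normalizer (A : Set G))
  have hfib : ∀ v ∈ (Finset.univ : Finset (Subgroup.normalizer (A : Set G))).image T,
      (Finset.univ.filter fun g => T g = v).card ≤ b * bnd b N * Nat.card A := by
    intro v hv
    obtain ⟨g₀, -, rfl⟩ := Finset.mem_image.1 hv
    refine le_trans ?_ (hA.card_centralizer_le S hxe (A.pow_mem hxA e))
    rw [Nat.card_eq_fintype_card, Fintype.card_subtype]
    refine Finset.card_le_card_of_injOn
      (fun g : Subgroup.normalizer (A : Set G) => (g : G) * (g₀ : G)⁻¹) (fun g hg => ?_)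
      (fun a _ c _ h => Subtype.ext (mul_right_cancel h))
    refine Finset.mem_filter.2 ⟨Finset.mem_univ _, ?_⟩
    set k := (g : G) * (g₀ : G)⁻¹ with hk
    have hgT : T g = T g₀ := (Finset.mem_filter.1 hg).2
    have hkA : k * x * k⁻¹ ∈ A :=
      (Subgroup.mem_normalizer_iff.1 (mul_mem g.2 (inv_mem g₀.2)) x).1 hxA
    have hu : k * x * k⁻¹ * x⁻¹ ∈ U := by
      refine ⟨A.mul_mem hkA (A.inv_mem hxA), fun φ => ?_⟩
      have hy : (g₀ : G)⁻¹ * x * (g₀ : G) ∈ A := by
        have := (Subgroup.mem_normalizer_iff.1 (inv_mem g₀.2) x).1 hxA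
        rwa [inv_inv] at this
      have h := DFunLike.congr_fun (congrFun hgT φ) (el _ hy)
      rw [hT g φ _ hy, hT g₀ φ _ hy] at h
      have h' : φ (el (k * x * k⁻¹) hkA) = φ (el x hxA) := by
        convert h using 2
        · exact Subtype.ext (congrArg ρ (by rw [hk]; group))
        · exact Subtype.ext (congrArg ρ (by group))
      rw [show el (k * x * k⁻¹ * x⁻¹) (A.mul_mem hkA (A.inv_mem hxA)) =
        el (k * x * k⁻¹) hkA * el x⁻¹ (A.inv_mem hxA) from Subtype.ext (map_mul ρ _ _),
        map_mul, h', ← map_mul, show el x hxA * el x⁻¹ (A.inv_mem hxA) = 1 from Subtype.ext (by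
          show ρ x * ρ x⁻¹ = 1
          rw [← map_mul, mul_inv_cancel, map_one]), map_one]
    have hxe' : k * x ^ e * k⁻¹ = x ^ e := by
      have huA : k * x * k⁻¹ * x⁻¹ ∈ A := hu.1
      calc k * x ^ e * k⁻¹ = (k * x * k⁻¹) ^ e := conj_pow.symm
        _ = (k * x * k⁻¹ * x⁻¹ * x) ^ e := by rw [inv_mul_cancel_right]
        _ = _ := by
          rw [(hA.1.1 _ huA _ hxA).mul_pow, hUe _ hu, one_mul]
    rw [Subgroup.mem_centralizer_singleton_iff]
    calc k * x ^ e = k * x ^ e * k⁻¹ * k := by rw [inv_mul_cancel_right]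
      _ = _ := by rw [hxe']
  have h := Finset.card_le_mul_card_image _ _ hfib
  rw [Finset.card_univ, ← Nat.card_eq_fintype_card] at h
  refine h.trans ?_
  rw [mul_comm _ (Finset.card _), mul_assoc (N ^ N)]
  refine Nat.mul_le_mul_right _ ((Finset.card_le_univ _).trans ?_)
  rw [Fintype.card_fun, ← Nat.card_eq_fintype_card]
  rcases Nat.eq_zero_or_pos (Nat.card (alg F ρ A →ₐ[F] F)) with h0 | h0
  · rw [h0, pow_zero]; exact Nat.pos_of_ne_zero (by rcases Nat.eq_zero_or_pos N with rfl | hN <;> positivity)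
  · exact (Nat.pow_le_pow_left hΦ _).trans (Nat.pow_le_pow_right (h0.trans_le hΦ) hΦ)

end Cfsg.Agent.ModJordan
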